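import Mathlib
import Cfsg.Agent.S0495
import Cfsg.Agent.Lib.Helper5.SLGen
import Cfsg.Agent.Lib.Helper17.Count
import Cfsg.Agent.Lib.Helper73.DihedralRec

/-! The simple group of order 168: the model `SL₃(2)`, element-level facts proved by kernel
computation in the model, their transport to any simple group of order 168 (through S0495), and the
first consequences (classes, centralizers, Sylow subgroups). -/

set_option autoImplicit false

namespace Cfsg.Agent.Lib.Helper89.G168

abbrev M168 := Matrix.SpecialLinearGroup (Fin 3) (ZMod 2)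

def zM : M168 := ⟨!![1,1,0;0,1,0;0,0,1], by decide⟩
def yM : M168 := ⟨!![1,1,0;0,1,1;0,0,1], by decide⟩

set_option maxRecDepth 1000000 in
theorem card_M : Fintype.card M168 = 168 := by decide +kernel

set_option maxRecDepth 1000000 in
theorem orders_M : ∀ g : M168, g ^ 2 = 1 ∨ g ^ 3 = 1 ∨ g ^ 4 = 1 ∨ g ^ 7 = 1 := by decide +kernel

set_option maxRecDepth 1000000 in
theorem c2_M : Fintype.card {g : M168 // g ≠ 1 ∧ g ^ 2 = 1} = 21 := by decide +kernel

set_option maxRecDepth 1000000 in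
theorem c3_M : Fintype.card {g : M168 // g ≠ 1 ∧ g ^ 3 = 1} = 56 := by decide +kernel

set_option maxRecDepth 1000000 in
theorem c4_M : Fintype.card {g : M168 // g ^ 2 ≠ 1 ∧ g ^ 4 = 1} = 42 := by decide +kernel

set_option maxRecDepth 1000000 in
theorem c7_M : Fintype.card {g : M168 // g ≠ 1 ∧ g ^ 7 = 1} = 48 := by decide +kernel

set_option maxRecDepth 1000000 in
theorem cz_M : Fintype.card {g : M168 // g * zM = zM * g} = 8 := by decide +kernel

set_option maxRecDepth 1000000 in
theorem cy_M : Fintype.card {g : M168 // g * yM = yM * g} = 4 := by decide +kernel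

set_option maxRecDepth 1000000 in
theorem center_M : ∀ g : M168, (∀ h : M168, h * g = g * h) → g = 1 := by decide +kernel

set_option maxRecDepth 1000000 in
theorem rel_M : zM ≠ 1 ∧ zM ^ 2 = 1 ∧ yM ^ 4 = 1 ∧ yM ^ 2 ≠ 1 ∧ zM * yM * zM⁻¹ = yM⁻¹ ∧ zM ≠ yM ∧
    zM ≠ yM ^ 2 ∧ zM ≠ yM ^ 3 := by decide +kernel

theorem simple_M : IsSimpleGroup M168 := by
  have h1 : IsSimpleGroup (Matrix.ProjectiveSpecialLinearGroup (Fin 3) (ZMod 2)) :=
    Cfsg.Agent.Lib.Helper5.PSL_isSimpleGroup (by simp)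
  have hc : Subgroup.center M168 = ⊥ := by
    rw [eq_bot_iff]
    intro g hg
    rw [Subgroup.mem_center_iff] at hg
    exact Subgroup.mem_bot.2 (center_M g hg)
  have e : M168 ≃* Matrix.ProjectiveSpecialLinearGroup (Fin 3) (ZMod 2) :=
    (QuotientGroup.quotientBot (G := M168)).symm.trans (QuotientGroup.quotientMulEquivOfEq hc.symm)
  exact e.isSimpleGroup

theorem exists_iso {G : Type*} [Group G] [Finite G] [IsSimpleGroup G] (h : Nat.card G = 168) :
    Nonempty (G ≃* M168) := by
  have : Fact (Nat.Prime 7) := ⟨by norm_num⟩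
  have := simple_M
  obtain ⟨e1⟩ := Cfsg.Agent.S0495.result h (F := ZMod 7) (by simp)
  obtain ⟨e2⟩ := Cfsg.Agent.S0495.result (G := M168) (by rw [Nat.card_eq_fintype_card, card_M])
    (F := ZMod 7) (by simp)
  exact ⟨e1.trans e2.symm⟩

/-- Element-level facts about the simple group of order 168. -/
structure Facts (G : Type*) [Group G] : Prop where
  orders : ∀ g : G, g ^ 2 = 1 ∨ g ^ 3 = 1 ∨ g ^ 4 = 1 ∨ g ^ 7 = 1
  c2 : Nat.card {g : G // g ≠ 1 ∧ g ^ 2 = 1} = 21
  c3 : Nat.card {g : G // g ≠ 1 ∧ g ^ 3 = 1} = 56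
  c4 : Nat.card {g : G // g ^ 2 ≠ 1 ∧ g ^ 4 = 1} = 42
  c7 : Nat.card {g : G // g ≠ 1 ∧ g ^ 7 = 1} = 48
  ex : ∃ z y : G, z ≠ 1 ∧ z ^ 2 = 1 ∧ y ^ 4 = 1 ∧ y ^ 2 ≠ 1 ∧ z * y * z⁻¹ = y⁻¹ ∧ z ≠ y ∧
    z ≠ y ^ 2 ∧ z ≠ y ^ 3 ∧ Nat.card {g : G // g * z = z * g} = 8 ∧
    Nat.card {g : G // g * y = y * g} = 4

theorem facts_M : Facts M168 where
  orders := orders_M
  c2 := by rw [Nat.card_eq_fintype_card, c2_M]
  c3 := by rw [Nat.card_eq_fintype_card, c3_M]
  c4 := by rw [Nat.card_eq_fintype_card, c4_M]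
  c7 := by rw [Nat.card_eq_fintype_card, c7_M]
  ex := by
    obtain ⟨h1, h2, h3, h4, h5, h6, h7, h8⟩ := rel_M
    exact ⟨zM, yM, h1, h2, h3, h4, h5, h6, h7, h8, by rw [Nat.card_eq_fintype_card, cz_M],
      by rw [Nat.card_eq_fintype_card, cy_M]⟩

theorem Facts.transport {G H : Type*} [Group G] [Group H] (e : G ≃* H) (F : Facts H) : Facts G where
  orders := by
    intro g
    have := F.orders (e g)
    simpa only [← map_pow, EmbeddingLike.map_eq_one_iff] using this
  c2 := by
    rw [← F.c2]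
    exact Nat.card_congr (e.toEquiv.subtypeEquiv (fun g => by
      simp only [MulEquiv.toEquiv_eq_coe, MulEquiv.coe_toEquiv, ← map_pow, ne_eq, EmbeddingLike.map_eq_one_iff]))
  c3 := by
    rw [← F.c3]
    exact Nat.card_congr (e.toEquiv.subtypeEquiv (fun g => by
      simp only [MulEquiv.toEquiv_eq_coe, MulEquiv.coe_toEquiv, ← map_pow, ne_eq, EmbeddingLike.map_eq_one_iff]))
  c4 := by
    rw [← F.c4]
    exact Nat.card_congr (e.toEquiv.subtypeEquiv (fun g => by
      simp only [MulEquiv.toEquiv_eq_coe, MulEquiv.coe_toEquiv, ← map_pow, ne_eq, EmbeddingLike.map_eq_one_iff]))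
  c7 := by
    rw [← F.c7]
    exact Nat.card_congr (e.toEquiv.subtypeEquiv (fun g => by
      simp only [MulEquiv.toEquiv_eq_coe, MulEquiv.coe_toEquiv, ← map_pow, ne_eq, EmbeddingLike.map_eq_one_iff]))
  ex := by
    obtain ⟨z, y, h1, h2, h3, h4, h5, h6, h7, h8, h9, h10⟩ := F.ex
    obtain ⟨z, rfl⟩ := e.surjective z
    obtain ⟨y, rfl⟩ := e.surjective y
    simp only [← map_pow, ← map_mul, ← map_inv, ne_eq, EmbeddingLike.map_eq_one_iff, EmbeddingLike.apply_eq_iff_eq] at h1 h2 h3 h4 h5 h6 h7 h8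
    refine ⟨z, y, h1, h2, h3, h4, h5, h6, h7, h8, ?_, ?_⟩
    · rw [← h9]
      exact Nat.card_congr (e.toEquiv.subtypeEquiv (fun g => by
        simp only [MulEquiv.toEquiv_eq_coe, MulEquiv.coe_toEquiv, ← map_mul, EmbeddingLike.apply_eq_iff_eq]))
    · rw [← h10]
      exact Nat.card_congr (e.toEquiv.subtypeEquiv (fun g => by
        simp only [MulEquiv.toEquiv_eq_coe, MulEquiv.coe_toEquiv, ← map_mul, EmbeddingLike.apply_eq_iff_eq]))

theorem facts {G : Type*} [Group G] [Finite G] [IsSimpleGroup G] (h : Nat.card G = 168) : Facts G := by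
  obtain ⟨e⟩ := exists_iso h
  exact facts_M.transport e

section Derived

open Subgroup Cfsg.Agent.Lib.Helper17

variable {G : Type*} [Group G]

theorem orderOf_two_iff (g : G) : orderOf g = 2 ↔ g ≠ 1 ∧ g ^ 2 = 1 := by
  have : Fact (Nat.Prime 2) := ⟨by norm_num⟩
  rw [orderOf_eq_prime_iff, and_comm]

theorem orderOf_three_iff (g : G) : orderOf g = 3 ↔ g ≠ 1 ∧ g ^ 3 = 1 := by
  have : Fact (Nat.Prime 3) := ⟨by norm_num⟩
  rw [orderOf_eq_prime_iff, and_comm]

theorem orderOf_seven_iff (g : G) : orderOf g = 7 ↔ g ≠ 1 ∧ g ^ 7 = 1 := by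
  have : Fact (Nat.Prime 7) := ⟨by norm_num⟩
  rw [orderOf_eq_prime_iff, and_comm]

theorem orderOf_four_iff (g : G) : orderOf g = 4 ↔ g ^ 2 ≠ 1 ∧ g ^ 4 = 1 := by
  have : Fact (Nat.Prime 2) := ⟨by norm_num⟩
  constructor
  · intro h
    refine ⟨fun h2 => ?_, by rw [← h]; exact pow_orderOf_eq_one g⟩
    have := orderOf_dvd_of_pow_eq_one h2
    rw [h] at this
    omega
  · rintro ⟨h1, h2⟩
    exact orderOf_eq_prime_pow (p := 2) (n := 1) (by simpa using h1) (by simpa using h2)

theorem Facts.orderOf_cases (F : Facts G) (g : G) :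
    orderOf g = 1 ∨ orderOf g = 2 ∨ orderOf g = 3 ∨ orderOf g = 4 ∨ orderOf g = 7 := by
  rcases F.orders g with h | h | h | h
  · have h1 := orderOf_dvd_of_pow_eq_one h
    rcases (Nat.dvd_prime (by norm_num)).1 h1 with h2 | h2 <;> simp [h2]
  · have h1 := orderOf_dvd_of_pow_eq_one h
    rcases (Nat.dvd_prime (by norm_num)).1 h1 with h2 | h2 <;> simp [h2]
  · have h1 := orderOf_dvd_of_pow_eq_one h
    have h2 := Nat.le_of_dvd (by norm_num) h1
    interval_cases (orderOf g) <;> simp_all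
  · have h1 := orderOf_dvd_of_pow_eq_one h
    rcases (Nat.dvd_prime (by norm_num)).1 h1 with h2 | h2 <;> simp [h2]

theorem Facts.n2 (F : Facts G) : Nat.card {g : G // orderOf g = 2} = 21 := by
  rw [← F.c2]; exact Nat.card_congr (Equiv.subtypeEquivRight orderOf_two_iff)

theorem Facts.n3 (F : Facts G) : Nat.card {g : G // orderOf g = 3} = 56 := by
  rw [← F.c3]; exact Nat.card_congr (Equiv.subtypeEquivRight orderOf_three_iff)

theorem Facts.n4 (F : Facts G) : Nat.card {g : G // orderOf g = 4} = 42 := by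
  rw [← F.c4]; exact Nat.card_congr (Equiv.subtypeEquivRight orderOf_four_iff)

theorem Facts.n7 (F : Facts G) : Nat.card {g : G // orderOf g = 7} = 48 := by
  rw [← F.c7]; exact Nat.card_congr (Equiv.subtypeEquivRight orderOf_seven_iff)

theorem card_centralizer_eq (z : G) :
    Nat.card (centralizer ({z} : Set G)) = Nat.card {g : G // g * z = z * g} :=
  Nat.card_congr (Equiv.subtypeEquivRight (fun g => by
    rw [mem_centralizer_singleton_iff]))

variable [Finite G]

theorem isConj_of_card {n k : ℕ} (hk : Nat.card {g : G // orderOf g = n} = k) {s0 : G}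
    (hs0 : orderOf s0 = n) (hc : Nat.card {g : G // IsConj s0 g} = k) (s : G)
    (hs : orderOf s = n) : IsConj s0 s := by
  have h1 : {g : G | IsConj s0 g} ⊆ {g : G | orderOf g = n} := by
    intro g hg
    exact (orderOf_eq_of_isConj hg).symm.trans hs0
  have h2 : {g : G | IsConj s0 g} = {g : G | orderOf g = n} := by
    apply Set.eq_of_subset_of_ncard_le h1 _ (Set.toFinite _)
    rw [← Nat.card_coe_set_eq, ← Nat.card_coe_set_eq]
    exact (hk.trans hc.symm).le
  have : s ∈ {g : G | IsConj s0 g} := by rw [h2]; exact hs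
  exact this

theorem isConj_of_card' {n k : ℕ} (hk : Nat.card {g : G // orderOf g = n} = k) {s0 : G}
    (hs0 : orderOf s0 = n) (hc : Nat.card {g : G // IsConj s0 g} = k) (s t : G)
    (hs : orderOf s = n) (ht : orderOf t = n) : IsConj s t :=
  (isConj_of_card hk hs0 hc s hs).symm.trans (isConj_of_card hk hs0 hc t ht)

theorem card_centralizer_of_isConj {s t : G} (h : IsConj s t) :
    Nat.card (centralizer ({s} : Set G)) = Nat.card (centralizer ({t} : Set G)) := by
  have h1 := card_conj_mul_card_centralizer s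
  have h2 := card_conj_mul_card_centralizer t
  have h3 : Nat.card {g : G // IsConj s g} = Nat.card {g : G // IsConj t g} :=
    Nat.card_congr (Equiv.subtypeEquivRight (fun g => ⟨fun hg => h.symm.trans hg, fun hg => h.trans hg⟩))
  rw [h3, ← h2] at h1
  have h4 : 0 < Nat.card {g : G // IsConj t g} := by
    have : Nonempty {g : G // IsConj t g} := ⟨⟨t, IsConj.refl t⟩⟩
    exact Nat.card_pos
  exact Nat.eq_of_mul_eq_mul_left h4 h1

theorem Facts.conj2 (F : Facts G) (h : Nat.card G = 168) (s t : G) (hs : orderOf s = 2)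
    (ht : orderOf t = 2) : IsConj s t := by
  obtain ⟨z, y, h1, h2, h3, h4, h5, h6, h7, h8, h9, h10⟩ := F.ex
  have hc := card_conj_mul_card_centralizer z
  rw [card_centralizer_eq, h9, h] at hc
  exact isConj_of_card' F.n2 ((orderOf_two_iff z).2 ⟨h1, h2⟩) (by omega) s t hs ht

theorem Facts.conj4 (F : Facts G) (h : Nat.card G = 168) (s t : G) (hs : orderOf s = 4)
    (ht : orderOf t = 4) : IsConj s t := by
  obtain ⟨z, y, h1, h2, h3, h4, h5, h6, h7, h8, h9, h10⟩ := F.ex
  have hc := card_conj_mul_card_centralizer y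
  rw [card_centralizer_eq, h10, h] at hc
  exact isConj_of_card' F.n4 ((orderOf_four_iff y).2 ⟨h4, h3⟩) (by omega) s t hs ht

theorem Facts.cent2 (F : Facts G) (h : Nat.card G = 168) (s : G) (hs : orderOf s = 2) :
    Nat.card (centralizer ({s} : Set G)) = 8 := by
  obtain ⟨z, y, h1, h2, h3, h4, h5, h6, h7, h8, h9, h10⟩ := F.ex
  rw [card_centralizer_of_isConj (F.conj2 h s z hs ((orderOf_two_iff z).2 ⟨h1, h2⟩)),
    card_centralizer_eq, h9]

theorem Facts.cent4 (F : Facts G) (h : Nat.card G = 168) (s : G) (hs : orderOf s = 4) :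
    Nat.card (centralizer ({s} : Set G)) = 4 := by
  obtain ⟨z, y, h1, h2, h3, h4, h5, h6, h7, h8, h9, h10⟩ := F.ex
  rw [card_centralizer_of_isConj (F.conj4 h s y hs ((orderOf_four_iff y).2 ⟨h4, h3⟩)),
    card_centralizer_eq, h10]

/-- no prime `q` different from the order `p` of `x` divides `|C(x)|` -/
theorem Facts.not_dvd_cent (F : Facts G) {p q : ℕ} (hq : q.Prime) (hpq : Nat.Coprime p q) (x : G)
    (hx : orderOf x = p) (hbad : p * q ≠ 1 ∧ p * q ≠ 2 ∧ p * q ≠ 3 ∧ p * q ≠ 4 ∧ p * q ≠ 7) :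
    ¬ q ∣ Nat.card (centralizer ({x} : Set G)) := by
  intro hd
  have : Fact q.Prime := ⟨hq⟩
  obtain ⟨y, hy⟩ := exists_prime_orderOf_dvd_card' q hd
  have hy' : orderOf (y : G) = q := by rw [Subgroup.orderOf_coe, hy]
  have hcomm : Commute x (y : G) := by
    have := mem_centralizer_singleton_iff.1 y.2
    exact this.symm
  have := hcomm.orderOf_mul_eq_mul_orderOf_of_coprime (by rw [hx, hy']; exact hpq)
  rw [hx, hy'] at this
  rcases F.orderOf_cases (x * y) with h | h | h | h | h <;> omega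

theorem Facts.cent3 (F : Facts G) (h : Nat.card G = 168) (s : G) (hs : orderOf s = 3) :
    Nat.card (centralizer ({s} : Set G)) = 3 := by
  have h1 := F.not_dvd_cent (p := 3) (q := 2) (by norm_num) (by norm_num) s hs (by omega)
  have h2 := F.not_dvd_cent (p := 3) (q := 7) (by norm_num) (by norm_num) s hs (by omega)
  have h3 : 3 ∣ Nat.card (centralizer ({s} : Set G)) := by
    have := orderOf_dvd_natCard (⟨s, mem_centralizer_singleton_iff.2 rfl⟩ : centralizer ({s} : Set G))
    rwa [← Subgroup.orderOf_coe, hs] at this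
  have h4 := Subgroup.card_subgroup_dvd_card (centralizer ({s} : Set G))
  rw [h] at h4
  have h5 := Nat.le_of_dvd (by norm_num) h4
  generalize Nat.card (centralizer ({s} : Set G)) = d at *
  interval_cases d <;> omega

theorem Facts.cent7 (F : Facts G) (h : Nat.card G = 168) (s : G) (hs : orderOf s = 7) :
    Nat.card (centralizer ({s} : Set G)) = 7 := by
  have h1 := F.not_dvd_cent (p := 7) (q := 2) (by norm_num) (by norm_num) s hs (by omega)
  have h2 := F.not_dvd_cent (p := 7) (q := 3) (by norm_num) (by norm_num) s hs (by omega)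
  have h3 : 7 ∣ Nat.card (centralizer ({s} : Set G)) := by
    have := orderOf_dvd_natCard (⟨s, mem_centralizer_singleton_iff.2 rfl⟩ : centralizer ({s} : Set G))
    rwa [← Subgroup.orderOf_coe, hs] at this
  have h4 := Subgroup.card_subgroup_dvd_card (centralizer ({s} : Set G))
  rw [h] at h4
  have h5 := Nat.le_of_dvd (by norm_num) h4
  generalize Nat.card (centralizer ({s} : Set G)) = d at *
  interval_cases d <;> omega

theorem Facts.conj3 (F : Facts G) (h : Nat.card G = 168) (s t : G) (hs : orderOf s = 3)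
    (ht : orderOf t = 3) : IsConj s t := by
  have hc := card_conj_mul_card_centralizer s
  rw [F.cent3 h s hs, h] at hc
  exact isConj_of_card F.n3 hs (by omega) t ht


omit [Finite G] in
theorem mem_normalizer_zpowers {g x : G} (h1 : g * x * g⁻¹ ∈ zpowers x) (h2 : g⁻¹ * x * g ∈ zpowers x) :
    g ∈ normalizer ((zpowers x : Subgroup G) : Set G) := by
  rw [Subgroup.mem_normalizer_iff]
  intro z
  constructor
  · rintro ⟨k, rfl⟩
    show g * x ^ k * g⁻¹ ∈ zpowers x
    rw [← conj_zpow]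
    exact zpow_mem h1 k
  · rintro ⟨k, hk⟩
    have hk' : x ^ k = g * z * g⁻¹ := hk
    have : z = (g⁻¹ * x * g) ^ k := by
      have h3 := conj_zpow (i := k) (a := g⁻¹) (b := x)
      rw [inv_inv] at h3
      rw [h3, hk']
      group
    rw [this]
    exact zpow_mem h2 k

theorem exists_sylow_zpowers {p : ℕ} [Fact p.Prime] {m : ℕ} (h : Nat.card G = p ^ 1 * m)
    (hm : ¬ p ∣ m) (x : G) (hx : orderOf x = p) : ∃ P : Sylow p G, (P : Subgroup G) = zpowers x := by
  obtain ⟨P₀⟩ : Nonempty (Sylow p G) := inferInstance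
  have h1 := (sylow_card_index P₀ h hm).1
  rw [P₀.card_eq_multiplicity] at h1
  exact ⟨Sylow.ofCard (zpowers x) (by rw [Nat.card_zpowers, hx, h1, pow_one]), Sylow.coe_ofCard _ _⟩

theorem card_sylow7 [IsSimpleGroup G] (h : Nat.card G = 168) : Nat.card (Sylow 7 G) = 8 := by
  have : Fact (Nat.Prime 7) := ⟨by norm_num⟩
  have h1 := card_sylow_mem (G := G) (p := 7) (a := 1) (m := 24) (by rw [h]; norm_num) (by norm_num)
  have h2 := card_sylow_ne_one (G := G) (p := 7) (a := 1) (m := 24) (by rw [h]; norm_num) (by norm_num)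
    (by norm_num) (by norm_num)
  have h3 := Nat.le_of_dvd (by norm_num) h1.1
  generalize Nat.card (Sylow 7 G) = n at *
  interval_cases n <;> omega

theorem Facts.card_sylow3 (F : Facts G) (h : Nat.card G = 168) : Nat.card (Sylow 3 G) = 28 := by
  have : Fact (Nat.Prime 3) := ⟨by norm_num⟩
  obtain ⟨P₀⟩ : Nonempty (Sylow 3 G) := inferInstance
  have h1 := (sylow_card_index P₀ (a := 1) (m := 56) (by rw [h]; norm_num) (by norm_num)).1
  have h2 := card_orderOf_eq_prime P₀ h1
  rw [F.n3] at h2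
  omega

theorem card_normalizer7 [IsSimpleGroup G] (h : Nat.card G = 168) (x : G) (hx : orderOf x = 7) :
    Nat.card (normalizer ((zpowers x : Subgroup G) : Set G)) = 21 := by
  have : Fact (Nat.Prime 7) := ⟨by norm_num⟩
  obtain ⟨P, hP⟩ := exists_sylow_zpowers (p := 7) (m := 24) (by rw [h]; norm_num) (by norm_num) x hx
  have h1 := card_sylow_mul_card_normalizer P
  rw [card_sylow7 h, h, hP] at h1
  omega

theorem Facts.card_normalizer3 (F : Facts G) (h : Nat.card G = 168) (x : G) (hx : orderOf x = 3) :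
    Nat.card (normalizer ((zpowers x : Subgroup G) : Set G)) = 6 := by
  have : Fact (Nat.Prime 3) := ⟨by norm_num⟩
  obtain ⟨P, hP⟩ := exists_sylow_zpowers (p := 3) (m := 56) (by rw [h]; norm_num) (by norm_num) x hx
  have h1 := card_sylow_mul_card_normalizer P
  rw [F.card_sylow3 h, h, hP] at h1
  omega

theorem not_isConj_inv7 [IsSimpleGroup G] (h : Nat.card G = 168) (x : G) (hx : orderOf x = 7) :
    ¬ IsConj x x⁻¹ := by
  intro hc
  obtain ⟨g, hg⟩ := isConj_iff.1 hc
  have hg' : g⁻¹ * x * g = x⁻¹ := by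
    have : x = g⁻¹ * x⁻¹ * g := by rw [← hg]; group
    calc g⁻¹ * x * g = (g⁻¹ * x⁻¹ * g)⁻¹ := by group
      _ = x⁻¹ := by rw [← this]
  have hN : g ∈ normalizer ((zpowers x : Subgroup G) : Set G) :=
    mem_normalizer_zpowers (by rw [hg]; exact inv_mem (mem_zpowers x))
      (by rw [hg']; exact inv_mem (mem_zpowers x))
  have h21 : g ^ 21 = 1 := by
    have := pow_card_eq_one' (x := (⟨g, hN⟩ : normalizer ((zpowers x : Subgroup G) : Set G)))
    rw [card_normalizer7 h x hx] at this
    exact congrArg Subtype.val this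
  have hsemi : ∀ k : ℕ, g ^ (2 * k) * x = x * g ^ (2 * k) := by
    intro k
    induction k with
    | zero => simp
    | succ k ih =>
      have h2 : g ^ 2 * x = x * g ^ 2 := by
        have e1 : g * x = x⁻¹ * g := by rw [← hg]; group
        have e2 : g * x⁻¹ = x * g := by
          have : x = g * x⁻¹ * g⁻¹ := by
            calc x = (g * x * g⁻¹)⁻¹ := by rw [hg, inv_inv]
              _ = g * x⁻¹ * g⁻¹ := by group
          calc g * x⁻¹ = (g * x⁻¹ * g⁻¹) * g := by group
            _ = x * g := by rw [← this]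
        calc g ^ 2 * x = g * (g * x) := by rw [sq, mul_assoc]
          _ = (g * x⁻¹) * g := by rw [e1, mul_assoc]
          _ = x * g ^ 2 := by rw [e2, sq, mul_assoc]
      calc g ^ (2 * (k + 1)) * x = g ^ (2 * k) * (g ^ 2 * x) := by
            rw [mul_add, mul_one, pow_add, mul_assoc]
        _ = (g ^ (2 * k) * x) * g ^ 2 := by rw [h2, mul_assoc]
        _ = x * g ^ (2 * (k + 1)) := by rw [ih, mul_add, mul_one, pow_add, mul_assoc]
  have h22 := hsemi 11
  have hgg : g ^ (2 * 11) = g := by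
    calc g ^ (2 * 11) = g ^ 21 * g := by rw [← pow_succ]
      _ = g := by rw [h21, one_mul]
  rw [hgg] at h22
  have hxx : x = x⁻¹ := by
    rw [← hg, h22]; group
  have hx2 : x ^ 2 = 1 := by
    rw [sq]
    nth_rewrite 1 [hxx]
    exact inv_mul_cancel x
  have := orderOf_dvd_of_pow_eq_one hx2
  rw [hx] at this
  omega

theorem card_sylow2_coe (h : Nat.card G = 168) (T : Sylow 2 G) : Nat.card (T : Subgroup G) = 8 := by
  have : Fact (Nat.Prime 2) := ⟨by norm_num⟩
  exact (sylow_card_index T (a := 3) (m := 21) (by rw [h]; norm_num) (by norm_num)).1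

theorem exists_sylow2_of_card (h : Nat.card G = 168) (H : Subgroup G) (hH : Nat.card H = 8) :
    ∃ T : Sylow 2 G, (T : Subgroup G) = H := by
  have : Fact (Nat.Prime 2) := ⟨by norm_num⟩
  obtain ⟨P₀⟩ : Nonempty (Sylow 2 G) := inferInstance
  have h1 := card_sylow2_coe h P₀
  rw [P₀.card_eq_multiplicity] at h1
  exact ⟨Sylow.ofCard H (by rw [hH, h1]), Sylow.coe_ofCard _ _⟩

theorem Facts.sylow2_dihedral (F : Facts G) (h : Nat.card G = 168) (T : Sylow 2 G) :
    Nonempty (↥(T : Subgroup G) ≃* DihedralGroup 4) := by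
  classical
  have : Fact (Nat.Prime 2) := ⟨by norm_num⟩
  obtain ⟨z, y, h1, h2, h3, h4, h5, h6, h7, h8, h9, h10⟩ := F.ex
  have hy2 : orderOf (y ^ 2) = 2 := by
    rw [orderOf_two_iff]
    exact ⟨h4, by rw [← pow_mul]; exact h3⟩
  have hc := F.cent2 h _ hy2
  obtain ⟨T0, hT0⟩ := exists_sylow2_of_card h _ hc
  have hyT : y ∈ centralizer ({y ^ 2} : Set G) := by
    rw [mem_centralizer_singleton_iff]
    rw [← pow_succ, ← pow_succ']
  have hzT : z ∈ centralizer ({y ^ 2} : Set G) := by
    rw [mem_centralizer_singleton_iff]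
    have e1 : z * y ^ 2 * z⁻¹ = y ^ 2 := by
      rw [← conj_pow, h5, inv_pow]
      apply inv_eq_of_mul_eq_one_left
      rw [← pow_add]; exact h3
    calc z * y ^ 2 = (z * y ^ 2 * z⁻¹) * z := by group
      _ = y ^ 2 * z := by rw [e1]
  have hD : Nonempty (↥(centralizer ({y ^ 2} : Set G)) ≃* DihedralGroup 4) := by
    apply Cfsg.Agent.Lib.Helper73.nonempty_mulEquiv_dihedralGroup 4 ⟨y, hyT⟩ ⟨z, hzT⟩
    · rw [← Subgroup.orderOf_coe]
      exact (orderOf_four_iff y).2 ⟨h4, h3⟩
    · exact Subtype.ext h2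
    · exact Subtype.ext h5
    · intro hmem
      obtain ⟨k, hk⟩ := (mem_zpowers_iff_mem_range_orderOf (x := (⟨y, hyT⟩ : centralizer ({y ^ 2} : Set G)))).1 hmem |> Finset.mem_image.1
      have hord : orderOf (⟨y, hyT⟩ : centralizer ({y ^ 2} : Set G)) = 4 := by
        rw [← Subgroup.orderOf_coe]
        exact (orderOf_four_iff y).2 ⟨h4, h3⟩
      rw [hord, Finset.mem_range] at hk
      have hk2 : y ^ k = z := congrArg Subtype.val hk.2
      obtain ⟨hk1, -⟩ := hk
      interval_cases k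
      · exact h1 (by simpa using hk2.symm)
      · exact h6 (by simpa using hk2.symm)
      · exact h7 hk2.symm
      · exact h8 hk2.symm
    · rw [hc]
  obtain ⟨e⟩ := hD
  rw [← hT0] at e
  exact ⟨(T.equiv T0).trans e⟩

theorem dihedral_center : ∀ w : DihedralGroup 4, (∀ t, t * w = w * t) → w ≠ 1 →
    w = DihedralGroup.r 2 := by decide

theorem dihedral_center' : (DihedralGroup.r 2 : DihedralGroup 4) ≠ 1 ∧
    (DihedralGroup.r 2 : DihedralGroup 4) ^ 2 = 1 ∧
    ∀ t : DihedralGroup 4, t * DihedralGroup.r 2 = DihedralGroup.r 2 * t := by decide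

/-- the centre of a Sylow 2-subgroup -/
theorem Facts.sylow2_center (F : Facts G) (h : Nat.card G = 168) (T : Sylow 2 G) :
    ∃ z : G, z ∈ (T : Subgroup G) ∧ orderOf z = 2 ∧ (∀ t ∈ (T : Subgroup G), t * z = z * t) ∧
      (∀ w ∈ (T : Subgroup G), w ≠ 1 → (∀ t ∈ (T : Subgroup G), t * w = w * t) → w = z) ∧
      centralizer ({z} : Set G) = T := by
  obtain ⟨e⟩ := F.sylow2_dihedral h T
  obtain ⟨d1, d2, d3⟩ := dihedral_center'
  have hz1 : (e.symm (DihedralGroup.r 2) : G) ≠ 1 := by
    intro h0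
    apply d1
    have : e.symm (DihedralGroup.r 2) = 1 := Subtype.ext h0
    simpa using this
  have hz2 : (e.symm (DihedralGroup.r 2) : G) ^ 2 = 1 := by
    have : (e.symm (DihedralGroup.r 2)) ^ 2 = 1 := by rw [← map_pow, d2, map_one]
    exact congrArg Subtype.val this
  have hz3 : ∀ t ∈ (T : Subgroup G), t * (e.symm (DihedralGroup.r 2) : G) = (e.symm (DihedralGroup.r 2) : G) * t := by
    intro t ht
    have := d3 (e ⟨t, ht⟩)
    have h2 : (⟨t, ht⟩ : (T : Subgroup G)) * e.symm (DihedralGroup.r 2) = e.symm (DihedralGroup.r 2) * ⟨t, ht⟩ := by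
      apply e.injective
      rw [map_mul, map_mul, e.apply_symm_apply]
      exact this
    exact congrArg Subtype.val h2
  refine ⟨(e.symm (DihedralGroup.r 2) : G), (e.symm (DihedralGroup.r 2)).2,
    (orderOf_two_iff _).2 ⟨hz1, hz2⟩, hz3, ?_, ?_⟩
  · intro w hw hw1 hwc
    have := dihedral_center (e ⟨w, hw⟩) (by
      intro t
      have h2 := hwc (e.symm t) (e.symm t).2
      have h3 : e.symm t * (⟨w, hw⟩ : (T : Subgroup G)) = ⟨w, hw⟩ * e.symm t := Subtype.ext h2
      have h4 := congrArg e h3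
      rwa [map_mul, map_mul, e.apply_symm_apply] at h4) (by
      intro h0
      apply hw1
      have : (⟨w, hw⟩ : (T : Subgroup G)) = 1 := by simpa using h0
      exact congrArg Subtype.val this)
    rw [← this, e.symm_apply_apply]
  · symm
    apply Subgroup.eq_of_le_of_card_ge
    · intro t ht
      rw [mem_centralizer_singleton_iff]
      exact hz3 t ht
    · rw [F.cent2 h _ ((orderOf_two_iff _).2 ⟨hz1, hz2⟩), card_sylow2_coe h T]

theorem Facts.sylow2_normalizer (F : Facts G) (h : Nat.card G = 168) (T : Sylow 2 G) :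
    normalizer ((T : Subgroup G) : Set G) = T := by
  obtain ⟨z, hzT, hz2, hzc, huniq, hC⟩ := F.sylow2_center h T
  apply le_antisymm _ le_normalizer
  intro g hg
  rw [← hC, mem_centralizer_singleton_iff]
  have hg1 : ∀ t, t ∈ (T : Subgroup G) ↔ g * t * g⁻¹ ∈ (T : Subgroup G) := fun t => (mem_normalizer_iff.1 hg) t
  have hw : g * z * g⁻¹ = z := by
    apply huniq _ ((hg1 z).1 hzT)
    · intro h0
      have : z = 1 := by
        have := congrArg (fun u => g⁻¹ * u * g) h0
        simpa [mul_assoc] using this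
      rw [this, orderOf_one] at hz2
      omega
    · intro t ht
      have h3 : g⁻¹ * t * g ∈ (T : Subgroup G) := by
        rw [hg1]
        have : g * (g⁻¹ * t * g) * g⁻¹ = t := by group
        rw [this]; exact ht
      have h4 := hzc _ h3
      calc t * (g * z * g⁻¹) = g * ((g⁻¹ * t * g) * z) * g⁻¹ := by group
        _ = g * (z * (g⁻¹ * t * g)) * g⁻¹ := by rw [h4]
        _ = g * z * g⁻¹ * t := by group
  calc g * z = (g * z * g⁻¹) * g := by group
    _ = z * g := by rw [hw]

theorem Facts.card_sylow2 (F : Facts G) (h : Nat.card G = 168) : Nat.card (Sylow 2 G) = 21 := by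
  have : Fact (Nat.Prime 2) := ⟨by norm_num⟩
  obtain ⟨T⟩ : Nonempty (Sylow 2 G) := inferInstance
  have h1 := card_sylow_mul_card_normalizer T
  rw [F.sylow2_normalizer h T, card_sylow2_coe h T, h] at h1
  omega

end Derived

end Cfsg.Agent.Lib.Helper89.G168
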