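import Mathlib
import Cfsg.Agent.Lib.Helper89.G168
import Cfsg.Agent.Lib.Helper2.SylowRel
import Cfsg.Agent.S1012

set_option autoImplicit false

namespace Cfsg.Agent.Lib.Helper89.G168

open Subgroup Cfsg.Agent.Lib.Helper17

section KF

variable {G : Type*} [Group G]

theorem kf_iff (U : Subgroup G) : IsKleinFour ↥U ↔ Nat.card U = 4 ∧ ∀ x ∈ U, x ^ 2 = 1 := by
  constructor
  · intro h
    refine ⟨h.card_four, fun x hx => ?_⟩
    have := IsKleinFour.mul_self (⟨x, hx⟩ : U)
    rw [sq]
    exact congrArg Subtype.val this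
  · rintro ⟨h1, h2⟩
    refine ⟨h1, ?_⟩
    have h3 : Monoid.exponent U ∣ 2 := Monoid.exponent_dvd_of_forall_pow_eq_one (fun x => Subtype.ext (h2 x x.2))
    rcases (Nat.dvd_prime (by norm_num)).1 h3 with h4 | h4
    · rw [Monoid.exp_eq_one_iff] at h4
      have := Nat.card_of_subsingleton (1 : U)
      omega
    · exact h4

theorem kf_map {U : Subgroup G} (g : G) (h : IsKleinFour ↥U) :
    IsKleinFour ↥(U.map (MulAut.conj g).toMonoidHom) := by
  rw [kf_iff] at h ⊢
  refine ⟨by rw [Subgroup.card_map_of_injective (MulAut.conj g).injective]; exact h.1, ?_⟩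
  rintro _ ⟨x, hx, rfl⟩
  rw [← map_pow, h.2 x hx, map_one]

theorem le_normalizer_of_card {U T : Subgroup G} (hUT : U ≤ T) (hU : Nat.card U = 4)
    (hT : Nat.card T = 8) : T ≤ normalizer (U : Set G) := by
  have h1 : (U.subgroupOf T).index = 2 := by
    have := (U.subgroupOf T).index_mul_card
    rw [card_subgroupOf_of_le hUT, hU, hT] at this
    omega
  have := Subgroup.normal_of_index_eq_two h1
  exact (normal_subgroupOf_iff_le_normalizer hUT).1 this

end KF

section D4

open DihedralGroup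

def S1 : Finset (DihedralGroup 4) := {1, r 2, sr 0, sr 2}
def S2 : Finset (DihedralGroup 4) := {1, r 2, sr 1, sr 3}

set_option maxRecDepth 100000 in
theorem d4_kf : ∀ S : Finset (DihedralGroup 4), S.card = 4 → (∀ a ∈ S, ∀ b ∈ S, a * b ∈ S) →
    (∀ a ∈ S, a ^ 2 = 1) → S = S1 ∨ S = S2 := by decide +kernel

theorem d4_S1 : ∀ x : DihedralGroup 4, x * sr 0 = sr 0 * x ↔ x ∈ S1 := by decide
theorem d4_S2 : ∀ x : DihedralGroup 4, x * sr 1 = sr 1 * x ↔ x ∈ S2 := by decide
theorem d4_sq1 : ∀ x ∈ S1, x ^ 2 = 1 := by decide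
theorem d4_sq2 : ∀ x ∈ S2, x ^ 2 = 1 := by decide

def V1 : Subgroup (DihedralGroup 4) := centralizer {sr 0}
def V2 : Subgroup (DihedralGroup 4) := centralizer {sr 1}

theorem mem_V1 (x : DihedralGroup 4) : x ∈ V1 ↔ x ∈ S1 := by
  rw [V1, mem_centralizer_singleton_iff, d4_S1]

theorem mem_V2 (x : DihedralGroup 4) : x ∈ V2 ↔ x ∈ S2 := by
  rw [V2, mem_centralizer_singleton_iff, d4_S2]

theorem card_V1 : Nat.card V1 = 4 := by
  have : Nat.card V1 = Nat.card {x // x ∈ S1} := Nat.card_congr (Equiv.subtypeEquivRight mem_V1)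
  rw [this]; simp [S1]; decide

theorem card_V2 : Nat.card V2 = 4 := by
  have : Nat.card V2 = Nat.card {x // x ∈ S2} := Nat.card_congr (Equiv.subtypeEquivRight mem_V2)
  rw [this]; simp [S2]; decide

theorem V1_ne_V2 : V1 ≠ V2 := by
  intro h
  have h1 : sr 0 ∈ V1 := (mem_V1 _).2 (by decide)
  rw [h, mem_V2] at h1
  exact absurd h1 (by decide)

theorem d4_class (V : Subgroup (DihedralGroup 4)) (h1 : Nat.card V = 4) (h2 : ∀ x ∈ V, x ^ 2 = 1) :
    V = V1 ∨ V = V2 := by
  classical
  have hS := d4_kf (Finset.univ.filter (· ∈ V)) (by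
      have : Nat.card V = (Finset.univ.filter (· ∈ V)).card := by
        rw [Nat.card_eq_fintype_card, Fintype.card_subtype]
      rw [← this, h1]) (by
      intro a ha b hb
      simp only [Finset.mem_filter, Finset.mem_univ, true_and] at ha hb ⊢
      exact V.mul_mem ha hb) (by
      intro a ha
      simp only [Finset.mem_filter, Finset.mem_univ, true_and] at ha
      exact h2 a ha)
  rcases hS with h | h
  · left
    ext x
    rw [mem_V1, ← h]; simp
  · right
    ext x
    rw [mem_V2, ← h]; simp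

end D4


section Main

variable {G : Type*} [Group G] [Finite G]

theorem mem_normalizer_of_conj_le {H : Subgroup G} {g : G} (h : ∀ x ∈ H, g * x * g⁻¹ ∈ H) :
    g ∈ normalizer (H : Set G) := by
  rw [mem_normalizer_iff_map_conj_eq]
  apply Subgroup.eq_of_le_of_card_ge
  · rintro _ ⟨x, hx, rfl⟩
    exact h x hx
  · rw [Subgroup.card_map_of_injective (MulAut.conj g).injective]

/-- the two Klein four subgroups of a Sylow 2-subgroup -/
theorem Facts.klein_in_sylow (F : Facts G) (h : Nat.card G = 168) (T : Sylow 2 G) :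
    ∃ U W : Subgroup G, U ≠ W ∧ U ≤ (T : Subgroup G) ∧ W ≤ (T : Subgroup G) ∧ IsKleinFour ↥U ∧
      IsKleinFour ↥W ∧ ∀ X : Subgroup G, X ≤ (T : Subgroup G) → IsKleinFour ↥X → X = U ∨ X = W := by
  obtain ⟨e⟩ := F.sylow2_dihedral h T
  obtain ⟨f, hf⟩ : ∃ f : DihedralGroup 4 →* G, f = (T : Subgroup G).subtype.comp e.symm.toMonoidHom :=
    ⟨_, rfl⟩
  have hinj : Function.Injective f := by
    rw [hf]
    exact (Subgroup.subtype_injective _).comp e.symm.injective
  have hmem : ∀ x, f x ∈ (T : Subgroup G) := by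
    intro x; rw [hf]; exact (e.symm x).2
  have hrange : (T : Subgroup G) ≤ f.range := by
    intro t ht
    refine ⟨e ⟨t, ht⟩, ?_⟩
    rw [hf]; simp
  refine ⟨V1.map f, V2.map f, fun h0 => V1_ne_V2 (Subgroup.map_injective hinj h0), ?_, ?_, ?_, ?_, ?_⟩
  · rintro _ ⟨x, -, rfl⟩; exact hmem x
  · rintro _ ⟨x, -, rfl⟩; exact hmem x
  · rw [kf_iff]
    refine ⟨by rw [Subgroup.card_map_of_injective hinj, card_V1], ?_⟩
    rintro _ ⟨x, hx, rfl⟩
    rw [← map_pow, d4_sq1 x ((mem_V1 x).1 hx), map_one]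
  · rw [kf_iff]
    refine ⟨by rw [Subgroup.card_map_of_injective hinj, card_V2], ?_⟩
    rintro _ ⟨x, hx, rfl⟩
    rw [← map_pow, d4_sq2 x ((mem_V2 x).1 hx), map_one]
  · intro X hX kX
    rw [kf_iff] at kX
    have h1 : (X.comap f).map f = X := Subgroup.map_comap_eq_self (hX.trans hrange)
    have h2 : Nat.card (X.comap f) = 4 := by
      rw [← Subgroup.card_map_of_injective hinj, h1, kX.1]
    have h3 : ∀ x ∈ X.comap f, x ^ 2 = 1 := by
      intro x hx
      apply hinj
      rw [map_pow, map_one]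
      exact kX.2 _ hx
    rcases d4_class _ h2 h3 with h4 | h4
    · left; rw [← h1, h4]
    · right; rw [← h1, h4]

theorem Facts.card_klein_in_sylow (F : Facts G) (h : Nat.card G = 168) (T : Sylow 2 G) :
    Nat.card {U : Subgroup G // U ≤ (T : Subgroup G) ∧ IsKleinFour ↥U} = 2 := by
  obtain ⟨U, W, hne, hU, hW, kU, kW, hall⟩ := F.klein_in_sylow h T
  rw [Nat.card_eq_two_iff]
  refine ⟨⟨U, hU, kU⟩, ⟨W, hW, kW⟩, fun h0 => hne (congrArg Subtype.val h0), ?_⟩
  ext ⟨X, hX, kX⟩
  simp only [Set.mem_insert_iff, Set.mem_singleton_iff, Set.mem_univ, iff_true, Subtype.mk.injEq]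
  exact hall X hX kX

theorem Facts.klein_not_conj (F : Facts G) (h : Nat.card G = 168) (T : Sylow 2 G)
    (U W : Subgroup G) (hU : U ≤ (T : Subgroup G)) (hW : W ≤ (T : Subgroup G))
    (kU : IsKleinFour ↥U) (kW : IsKleinFour ↥W) (hne : U ≠ W) (g : G) :
    U.map (MulAut.conj g).toMonoidHom ≠ W := by
  have : Fact (Nat.Prime 2) := ⟨by norm_num⟩
  intro hg
  have hT8 := card_sylow2_coe h T
  have hTU : (T : Subgroup G) ≤ normalizer (U : Set G) := le_normalizer_of_card hU kU.card_four hT8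
  have hTW : (T : Subgroup G) ≤ normalizer (W : Set G) := le_normalizer_of_card hW kW.card_four hT8
  have hT'N : (T : Subgroup G).map (MulAut.conj g).toMonoidHom ≤ normalizer (W : Set G) := by
    rw [← hg, ← Subgroup.map_equiv_normalizer_eq U (MulAut.conj g)]
    exact Subgroup.map_mono hTU
  have hrel : ¬ 2 ∣ (T : Subgroup G).relIndex (normalizer (W : Set G)) := by
    intro h2
    apply T.not_dvd_index
    rw [← Subgroup.relIndex_mul_index hTW]
    exact Dvd.dvd.mul_right h2 _
  obtain ⟨c, hcN, hc⟩ := Cfsg.Agent.Lib.Helper2.exists_conj_le_of_relIndex (p := 2)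
    (normalizer (W : Set G)) ((T : Subgroup G).map (MulAut.conj g).toMonoidHom) (T : Subgroup G)
    (T.2.map _) hT'N T.2 hrel
  have hcg : c * g ∈ normalizer ((T : Subgroup G) : Set G) := by
    apply mem_normalizer_of_conj_le
    intro x hx
    have := hc (g * x * g⁻¹) ⟨x, hx, rfl⟩
    have e1 : c * g * x * (c * g)⁻¹ = c * (g * x * g⁻¹) * c⁻¹ := by group
    rw [e1]; exact this
  rw [F.sylow2_normalizer h T] at hcg
  have h1 := mem_normalizer_iff_map_conj_eq.1 (hTU hcg)
  have h2 := mem_normalizer_iff_map_conj_eq.1 hcN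
  apply hne
  rw [← h1, ← h2, ← hg, Subgroup.map_map]
  congr 1
  ext x
  simp [mul_assoc]

theorem Facts.card_normalizer_klein [IsSimpleGroup G] (F : Facts G) (h : Nat.card G = 168)
    (U : Subgroup G) (kU : IsKleinFour ↥U) : Nat.card (normalizer (U : Set G)) = 24 := by
  have : Fact (Nat.Prime 2) := ⟨by norm_num⟩
  have kU' := (kf_iff U).1 kU
  have hp : IsPGroup 2 U := IsPGroup.of_card (n := 2) (by rw [kU'.1]; norm_num)
  obtain ⟨T, hUT⟩ := hp.exists_le_sylow
  have hT8 := card_sylow2_coe h T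
  obtain ⟨z, hzT, hz2, hzc, huniq, hC⟩ := F.sylow2_center h T
  obtain ⟨a, haU, ha1, haz⟩ : ∃ a ∈ U, a ≠ 1 ∧ a ≠ z := by
    by_contra hcon
    push Not at hcon
    have hsub : (U : Set G) ⊆ {1, z} := by
      intro a ha
      by_cases h1 : a = 1
      · left; exact h1
      · right; exact hcon a ha h1
    have h1 := Set.ncard_le_ncard hsub (Set.toFinite _)
    have h2 : ({1, z} : Set G).ncard ≤ 2 := (Set.ncard_insert_le 1 {z}).trans (by simp)
    have h3 : (U : Set G).ncard = 4 := by rw [← kU'.1]; exact (Nat.card_coe_set_eq _).symm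
    omega
  have ha2 : orderOf a = 2 := (orderOf_two_iff a).2 ⟨ha1, kU'.2 a haU⟩
  have hCa := F.cent2 h a ha2
  have hUC : U ≤ centralizer ({a} : Set G) := by
    intro u hu
    rw [mem_centralizer_singleton_iff]
    have h1 := kU'.2 (u * a) (U.mul_mem hu haU)
    have h2 := kU'.2 u hu
    have h3 := kU'.2 a haU
    have h4 : u⁻¹ = u := inv_eq_of_mul_eq_one_left (by rw [← sq]; exact h2)
    have h5 : a⁻¹ = a := inv_eq_of_mul_eq_one_left (by rw [← sq]; exact h3)
    have h6 : (u * a)⁻¹ = u * a := inv_eq_of_mul_eq_one_left (by rw [← sq]; exact h1)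
    rw [← h6, mul_inv_rev, h4, h5]
  have hTN : (T : Subgroup G) ≤ normalizer (U : Set G) := le_normalizer_of_card hUT kU'.1 hT8
  have hCN : centralizer ({a} : Set G) ≤ normalizer (U : Set G) := le_normalizer_of_card hUC kU'.1 hCa
  have hCT : centralizer ({a} : Set G) ≠ T := by
    intro h0
    apply haz
    apply huniq a (hUT haU) ha1
    intro t ht
    rw [← h0, mem_centralizer_singleton_iff] at ht
    exact ht
  have d1 : 8 ∣ Nat.card (normalizer (U : Set G)) := hT8 ▸ Subgroup.card_dvd_of_le hTN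
  have d2 : Nat.card (normalizer (U : Set G)) ∣ 168 := h ▸ Subgroup.card_subgroup_dvd_card _
  have d3 : Nat.card (normalizer (U : Set G)) ≠ 8 := by
    intro h8
    have e1 : (T : Subgroup G) = normalizer (U : Set G) :=
      Subgroup.eq_of_le_of_card_ge hTN (by rw [h8, hT8])
    have e2 : centralizer ({a} : Set G) = normalizer (U : Set G) :=
      Subgroup.eq_of_le_of_card_ge hCN (by rw [h8, hCa])
    exact hCT (e2.trans e1.symm)
  have hntop : normalizer (U : Set G) ≠ ⊤ := by
    intro h0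
    have hn : U.Normal := normalizer_eq_top_iff.1 h0
    rcases normal_card U hn with h1 | h1 <;> omega
  have d4 : Nat.card (normalizer (U : Set G)) ≠ 168 := by
    intro h0
    exact hntop (Subgroup.eq_top_of_card_eq _ (by rw [h0, h]))
  have d5 : Nat.card (normalizer (U : Set G)) ≠ 56 := by
    intro h0
    have h1 := card_dvd_factorial_index _ hntop
    have h2 := (normalizer (U : Set G)).index_mul_card
    rw [h0, h] at h2
    have h3 : (normalizer (U : Set G)).index = 3 := by omega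
    rw [h3, h] at h1
    revert h1; decide
  generalize Nat.card (normalizer (U : Set G)) = d at *
  have := Nat.le_of_dvd (by norm_num) d2
  interval_cases d <;> omega

theorem Facts.normalizer_klein_iso [IsSimpleGroup G] (F : Facts G) (h : Nat.card G = 168)
    (U : Subgroup G) (kU : IsKleinFour ↥U) :
    Nonempty (↥(normalizer (U : Set G)) ≃* Equiv.Perm (Fin 4)) := by
  apply Cfsg.Agent.S1012.result (F.card_normalizer_klein h U kU)
  intro g hg
  rw [← Subgroup.orderOf_coe] at hg
  rcases F.orderOf_cases (g : G) with h1 | h1 | h1 | h1 | h1 <;> omega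

end Main

end Cfsg.Agent.Lib.Helper89.G168
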