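import Mathlib
import Cfsg.Agent.Lib.Helper89.G168b

set_option autoImplicit false
set_option linter.unusedSectionVars false

namespace Cfsg.Agent.Lib.Helper89.G168

open Subgroup Cfsg.Agent.Lib.Helper17

section S4

open Equiv.Perm

set_option maxRecDepth 100000 in
theorem v4_mul : ∀ a b : Equiv.Perm (Fin 4), (a ^ 2 = 1 ∧ sign a = 1) → (b ^ 2 = 1 ∧ sign b = 1) →
    ((a * b) ^ 2 = 1 ∧ sign (a * b) = 1) := by decide +kernel

theorem v4_card : Fintype.card {a : Equiv.Perm (Fin 4) // a ^ 2 = 1 ∧ sign a = 1} = 4 := by decide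

theorem s4_invert : ∀ a : Equiv.Perm (Fin 4), a ^ 3 = 1 → a ≠ 1 →
    ∃ b : Equiv.Perm (Fin 4), b ^ 2 = 1 ∧ b ≠ 1 ∧ b * a * b⁻¹ = a⁻¹ := by decide

def V4 : Subgroup (Equiv.Perm (Fin 4)) where
  carrier := {a | a ^ 2 = 1 ∧ sign a = 1}
  mul_mem' := fun {a b} ha hb => v4_mul a b ha hb
  one_mem' := by simp
  inv_mem' := by
    intro a ha
    simpa using ha

theorem mem_V4 (a : Equiv.Perm (Fin 4)) : a ∈ V4 ↔ a ^ 2 = 1 ∧ sign a = 1 := Iff.rfl

theorem card_V4 : Nat.card V4 = 4 := by
  have : Nat.card V4 = Nat.card {a : Equiv.Perm (Fin 4) // a ^ 2 = 1 ∧ sign a = 1} := rfl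
  rw [this, Nat.card_eq_fintype_card, v4_card]

theorem V4_conj (g a : Equiv.Perm (Fin 4)) (ha : a ∈ V4) : g * a * g⁻¹ ∈ V4 := by
  rw [mem_V4] at ha ⊢
  refine ⟨by rw [conj_pow, ha.1]; simp, ?_⟩
  rw [Equiv.Perm.sign_mul, Equiv.Perm.sign_mul, sign_inv, ha.2]
  simp

end S4


section Max

variable {G : Type*} [Group G] [Finite G]

theorem coatom_eq {M N : Subgroup G} (hM : IsCoatom M) (hMN : M ≤ N) (hN : N ≠ ⊤) : M = N := by
  rcases hM.le_iff.1 hMN with h | h
  · exact absurd h hN
  · exact h.symm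

theorem sylow_conj {p : ℕ} [Fact p.Prime] (P Q : Sylow p G) :
    ∃ g : G, (Q : Subgroup G) = (P : Subgroup G).map (MulAut.conj g).toMonoidHom := by
  obtain ⟨g, hg⟩ := MulAction.exists_smul_eq G P Q
  refine ⟨g, ?_⟩
  rw [← hg]
  rfl

theorem normalizer_map_conj (U : Subgroup G) (g : G) :
    normalizer ((U.map (MulAut.conj g).toMonoidHom : Subgroup G) : Set G) =
      (normalizer (U : Set G)).map (MulAut.conj g).toMonoidHom :=
  (Subgroup.map_equiv_normalizer_eq U (MulAut.conj g)).symm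

theorem card_le_24 [IsSimpleGroup G] (h : Nat.card G = 168) (M : Subgroup G) (hM : M ≠ ⊤) :
    Nat.card M ≤ 24 := by
  have h1 := card_dvd_factorial_index M hM
  rw [h] at h1
  have h2 : 7 ≤ M.index := (Nat.Prime.dvd_factorial (by norm_num)).1 (Dvd.dvd.trans (by norm_num) h1)
  have h3 := M.index_mul_card
  rw [h] at h3
  nlinarith

theorem normalizer_ne_top [IsSimpleGroup G] (h : Nat.card G = 168) (V : Subgroup G)
    (h1 : Nat.card V ≠ 1) (h2 : Nat.card V ≠ 168) : normalizer (V : Set G) ≠ ⊤ := by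
  intro h0
  have hn : V.Normal := normalizer_eq_top_iff.1 h0
  rcases normal_card V hn with h3 | h3
  · exact h1 h3
  · exact h2 (h3.trans h)

theorem isCoatom_of_card_24 (h : Nat.card G = 168) (H : Subgroup G) (hH : Nat.card H = 24) :
    IsCoatom H := by
  refine ⟨fun h0 => ?_, fun K hK => ?_⟩
  · rw [h0, Subgroup.card_top, h] at hH; omega
  · have h1 := Subgroup.card_dvd_of_le hK.le
    have h2 := Subgroup.card_subgroup_dvd_card K
    rw [hH] at h1
    rw [h] at h2
    have h3 : Nat.card K ≠ 24 := by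
      intro h4
      exact hK.ne (Subgroup.eq_of_le_of_card_ge hK.le (by rw [h4, hH]))
    apply Subgroup.eq_top_of_card_eq
    rw [h]
    have := Nat.le_of_dvd (by norm_num) h2
    generalize Nat.card K = d at *
    interval_cases d <;> omega

/-- a maximal subgroup is not a 2-group -/
theorem Facts.not_two_group [IsSimpleGroup G] (F : Facts G) (h : Nat.card G = 168) (M : Subgroup G)
    (hM : IsCoatom M) (hp : IsPGroup 2 M) : False := by
  have : Fact (Nat.Prime 2) := ⟨by norm_num⟩
  obtain ⟨T, hMT⟩ := hp.exists_le_sylow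
  obtain ⟨U, W, hne, hU, hW, kU, kW, hall⟩ := F.klein_in_sylow h T
  have hT8 := card_sylow2_coe h T
  have hTU : (T : Subgroup G) ≤ normalizer (U : Set G) := le_normalizer_of_card hU kU.card_four hT8
  have h24 := F.card_normalizer_klein h U kU
  have h1 := coatom_eq hM (hMT.trans hTU) (by
    intro h0
    rw [h0, Subgroup.card_top, h] at h24; omega)
  have h2 := Subgroup.card_dvd_of_le hMT
  rw [h1, h24, hT8] at h2
  omega

/-- a subgroup with a unique Sylow `p`-subgroup, of order `p` -/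
theorem exists_normal_zpowers {p m : ℕ} [Fact p.Prime] (M : Subgroup G)
    (hM : Nat.card M = p ^ 1 * m) (hm : ¬ p ∣ m) (hn : Nat.card (Sylow p M) = 1) :
    ∃ x ∈ M, orderOf x = p ∧ M ≤ normalizer ((zpowers x : Subgroup G) : Set G) := by
  obtain ⟨P⟩ : Nonempty (Sylow p M) := inferInstance
  have hsub : Subsingleton (Sylow p M) := (Nat.card_eq_one_iff_unique.mp hn).1
  have hnorm : (P : Subgroup M).Normal := P.normal_of_subsingleton
  have hc := (sylow_card_index P hM hm).1
  rw [pow_one] at hc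
  have hcyc : IsCyclic ↥(P : Subgroup M) := isCyclic_of_prime_card hc
  obtain ⟨y, hy⟩ := hcyc.exists_generator
  have hyo : orderOf y = p := by rw [orderOf_eq_card_of_forall_mem_zpowers hy, hc]
  refine ⟨((y : M) : G), (y : M).2, by rw [Subgroup.orderOf_coe, Subgroup.orderOf_coe, hyo], ?_⟩
  intro g hg
  apply mem_normalizer_of_conj_le
  rintro _ ⟨k, rfl⟩
  have h1 : (⟨g, hg⟩ : M) * (y : M) ^ k * (⟨g, hg⟩ : M)⁻¹ ∈ (P : Subgroup M) :=
    hnorm.conj_mem _ (zpow_mem y.2 k) _
  obtain ⟨j, hj⟩ := hy ⟨_, h1⟩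
  refine ⟨j, ?_⟩
  have h2 := congrArg (fun u : ↥(P : Subgroup M) => ((u : M) : G)) hj
  simpa using h2

theorem Facts.exists_klein (F : Facts G) (h : Nat.card G = 168) : ∃ U : Subgroup G, IsKleinFour ↥U := by
  have : Fact (Nat.Prime 2) := ⟨by norm_num⟩
  obtain ⟨T⟩ : Nonempty (Sylow 2 G) := inferInstance
  obtain ⟨U, W, hne, hU, hW, kU, kW, hall⟩ := F.klein_in_sylow h T
  exact ⟨U, kU⟩

/-- the normalizer of a subgroup of order 3 lies in the normalizer of a four-group -/
theorem Facts.normalizer3_le [IsSimpleGroup G] (F : Facts G) (h : Nat.card G = 168) (x : G)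
    (hx : orderOf x = 3) : ∃ U : Subgroup G, IsKleinFour ↥U ∧
      normalizer ((zpowers x : Subgroup G) : Set G) ≤ normalizer (U : Set G) := by
  have : Fact (Nat.Prime 3) := ⟨by norm_num⟩
  obtain ⟨U0, kU0⟩ := F.exists_klein h
  have h24 := F.card_normalizer_klein h U0 kU0
  obtain ⟨x0, hx0⟩ := exists_prime_orderOf_dvd_card' (G := normalizer (U0 : Set G)) 3 (by rw [h24]; norm_num)
  have hx0' : orderOf (x0 : G) = 3 := by rw [Subgroup.orderOf_coe, hx0]
  obtain ⟨g, hg⟩ := isConj_iff.1 (F.conj3 h _ _ hx0' hx)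
  have kU := kf_map g kU0
  refine ⟨_, kU, ?_⟩
  have hxN : x ∈ normalizer ((U0.map (MulAut.conj g).toMonoidHom : Subgroup G) : Set G) := by
    rw [normalizer_map_conj]
    exact ⟨x0, x0.2, hg⟩
  obtain ⟨e⟩ := F.normalizer_klein_iso h _ kU
  have hx3 := (orderOf_three_iff x).1 hx
  obtain ⟨b, hb2, hb1, hb⟩ := s4_invert (e ⟨x, hxN⟩) (by
      rw [← map_pow]
      have : (⟨x, hxN⟩ : normalizer ((U0.map (MulAut.conj g).toMonoidHom : Subgroup G) : Set G)) ^ 3 = 1 :=
        Subtype.ext hx3.2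
      rw [this, map_one]) (by
      intro h0
      have : (⟨x, hxN⟩ : normalizer ((U0.map (MulAut.conj g).toMonoidHom : Subgroup G) : Set G)) = 1 :=
        (EmbeddingLike.map_eq_one_iff (f := e)).1 h0
      exact hx3.1 (congrArg Subtype.val this))
  obtain ⟨t, rfl⟩ := e.surjective b
  have ht2 : (t : G) ^ 2 = 1 := by
    have : t ^ 2 = 1 := by
      apply e.injective; rw [map_pow, hb2, map_one]
    exact congrArg Subtype.val this
  have ht1 : (t : G) ≠ 1 := by
    intro h0
    apply hb1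
    have : t = 1 := Subtype.ext h0
    rw [this, map_one]
  have htx : (t : G) * x * (t : G)⁻¹ = x⁻¹ := by
    have : t * ⟨x, hxN⟩ * t⁻¹ = (⟨x, hxN⟩ : normalizer ((U0.map (MulAut.conj g).toMonoidHom : Subgroup G) : Set G))⁻¹ := by
      apply e.injective
      rw [map_mul, map_mul, map_inv, map_inv, hb]
    exact congrArg Subtype.val this
  have htN : (t : G) ∈ normalizer ((zpowers x : Subgroup G) : Set G) := by
    apply mem_normalizer_of_conj_le
    rintro _ ⟨k, rfl⟩
    show (t : G) * x ^ k * (t : G)⁻¹ ∈ zpowers x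
    rw [← conj_zpow, htx]
    exact zpow_mem (inv_mem (mem_zpowers x)) k
  have hxNx : x ∈ normalizer ((zpowers x : Subgroup G) : Set G) := le_normalizer (mem_zpowers x)
  have h6 := F.card_normalizer3 h x hx
  have hK : normalizer ((zpowers x : Subgroup G) : Set G) ⊓
      normalizer ((U0.map (MulAut.conj g).toMonoidHom : Subgroup G) : Set G) =
      normalizer ((zpowers x : Subgroup G) : Set G) := by
    apply Subgroup.eq_of_le_of_card_ge inf_le_left
    rw [h6]
    have d3 : 3 ∣ Nat.card ↥(normalizer ((zpowers x : Subgroup G) : Set G) ⊓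
      normalizer ((U0.map (MulAut.conj g).toMonoidHom : Subgroup G) : Set G)) := by
      have := orderOf_dvd_natCard (⟨x, hxNx, hxN⟩ : ↥(normalizer ((zpowers x : Subgroup G) : Set G) ⊓
        normalizer ((U0.map (MulAut.conj g).toMonoidHom : Subgroup G) : Set G)))
      rwa [← Subgroup.orderOf_coe, hx] at this
    have d2 : 2 ∣ Nat.card ↥(normalizer ((zpowers x : Subgroup G) : Set G) ⊓
      normalizer ((U0.map (MulAut.conj g).toMonoidHom : Subgroup G) : Set G)) := by
      have := orderOf_dvd_natCard (⟨t, htN, t.2⟩ : ↥(normalizer ((zpowers x : Subgroup G) : Set G) ⊓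
        normalizer ((U0.map (MulAut.conj g).toMonoidHom : Subgroup G) : Set G)))
      rwa [← Subgroup.orderOf_coe, (orderOf_two_iff (t : G)).2 ⟨ht1, ht2⟩] at this
    have hpos : 0 < Nat.card ↥(normalizer ((zpowers x : Subgroup G) : Set G) ⊓
      normalizer ((U0.map (MulAut.conj g).toMonoidHom : Subgroup G) : Set G)) := Nat.card_pos
    omega
  rw [← hK]
  exact inf_le_right


/-- a maximal subgroup normalizing a subgroup of order 4 has order divisible by 8 -/
theorem Facts.eight_dvd_of_normal_four [IsSimpleGroup G] (_F : Facts G) (h : Nat.card G = 168)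
    (M V : Subgroup G) (hM : IsCoatom M) (hV : Nat.card V = 4) (hMV : M ≤ normalizer (V : Set G)) :
    8 ∣ Nat.card M := by
  have : Fact (Nat.Prime 2) := ⟨by norm_num⟩
  have hp : IsPGroup 2 V := IsPGroup.of_card (n := 2) (by rw [hV]; norm_num)
  obtain ⟨T, hVT⟩ := hp.exists_le_sylow
  have hT8 := card_sylow2_coe h T
  have hTV : (T : Subgroup G) ≤ normalizer (V : Set G) := le_normalizer_of_card hVT hV hT8
  have h1 := coatom_eq hM hMV (normalizer_ne_top h V (by omega) (by omega))
  rw [h1, ← hT8]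
  exact Subgroup.card_dvd_of_le hTV

theorem Facts.card_ne_12 [IsSimpleGroup G] (F : Facts G) (h : Nat.card G = 168) (M : Subgroup G)
    (hM : IsCoatom M) : Nat.card M ≠ 12 := by
  have : Fact (Nat.Prime 3) := ⟨by norm_num⟩
  intro h12
  have hfac : Nat.card M = 3 ^ 1 * 4 := by rw [h12]; norm_num
  have hn := card_sylow_mem (G := M) (p := 3) (a := 1) (m := 4) hfac (by norm_num)
  have hn' : Nat.card (Sylow 3 M) = 1 ∨ Nat.card (Sylow 3 M) = 4 := by
    have := Nat.le_of_dvd (by norm_num) hn.1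
    obtain ⟨h1, h2⟩ := hn
    generalize Nat.card (Sylow 3 M) = n at *
    interval_cases n <;> omega
  rcases hn' with h1 | h4
  · obtain ⟨x, hxM, hx, hMx⟩ := exists_normal_zpowers M hfac (by norm_num) h1
    have h6 := F.card_normalizer3 h x hx
    have h2 := coatom_eq hM hMx (by
      intro h0
      rw [h0, Subgroup.card_top, h] at h6; omega)
    rw [h2, h6] at h12
    omega
  · obtain ⟨P⟩ : Nonempty (Sylow 3 M) := inferInstance
    have hc := (sylow_card_index P hfac (by norm_num)).1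
    rw [pow_one] at hc
    have hN := card_sylow_mul_card_normalizer P
    rw [h4, h12] at hN
    have hN3 : Nat.card ↥(normalizer ((P : Subgroup M) : Set M)) = 3 := by omega
    have hNP : (P : Subgroup M) = normalizer ((P : Subgroup M) : Set M) :=
      Subgroup.eq_of_le_of_card_ge le_normalizer (by rw [hN3, hc])
    have hcyc : IsCyclic ↥(P : Subgroup M) := isCyclic_of_prime_card hc
    have hPC : (P : Subgroup M) ≤ centralizer ((P : Subgroup M) : Set M) := by
      have : IsMulCommutative ↥(P : Subgroup M) := ⟨⟨fun a b => by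
        let _ := hcyc.commGroup
        exact mul_comm a b⟩⟩
      exact Subgroup.le_centralizer _
    have hP : normalizer ((P : Subgroup M) : Set M) ≤ centralizer ((P : Subgroup M) : Set M) := by
      rw [← hNP]; exact hPC
    have hcomp := MonoidHom.ker_transferSylow_isComplement' P hP
    have hcard := hcomp.card_mul_card
    rw [hc, h12] at hcard
    obtain ⟨K, hKn, hK4⟩ : ∃ K : Subgroup M, K.Normal ∧ Nat.card K = 4 :=
      ⟨_, MonoidHom.normal_ker (MonoidHom.transferSylow P hP), by omega⟩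
    have h8 := F.eight_dvd_of_normal_four h M (K.map M.subtype) hM
      (by rw [Subgroup.card_map_of_injective M.subtype_injective, hK4]) (by
        intro g hg
        apply mem_normalizer_of_conj_le
        rintro _ ⟨k, hk, rfl⟩
        exact ⟨⟨g, hg⟩ * k * ⟨g, hg⟩⁻¹, hKn.conj_mem k hk _, rfl⟩)
    rw [h12] at h8
    omega

/-- subgroups of order divisible by 7 -/
theorem exists_normal7 [IsSimpleGroup G] (h : Nat.card G = 168) (M : Subgroup G) (hM : IsCoatom M)
    (h7 : 7 ∣ Nat.card M) : ∃ x : G, orderOf x = 7 ∧ M = normalizer ((zpowers x : Subgroup G) : Set G) := by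
  have : Fact (Nat.Prime 7) := ⟨by norm_num⟩
  have h24 := card_le_24 h M hM.1
  obtain ⟨m, hm⟩ := h7
  have hpos : 0 < Nat.card M := Nat.card_pos
  have hfac : Nat.card M = 7 ^ 1 * m := by rw [hm]; norm_num
  have hm7 : ¬ 7 ∣ m := by omega
  have hn := card_sylow_mem (G := M) (p := 7) (a := 1) (m := m) hfac hm7
  have hn1 : Nat.card (Sylow 7 M) = 1 := by
    have := Nat.le_of_dvd (by omega) hn.1
    omega
  obtain ⟨x, hxM, hx, hMx⟩ := exists_normal_zpowers M hfac hm7 hn1
  have h21 := card_normalizer7 h x hx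
  exact ⟨x, hx, coatom_eq hM hMx (by
    intro h0
    rw [h0, Subgroup.card_top, h] at h21; omega)⟩

theorem Facts.card_coatom [IsSimpleGroup G] (F : Facts G) (h : Nat.card G = 168) (M : Subgroup G)
    (hM : IsCoatom M) : Nat.card M = 24 ∨ Nat.card M = 21 := by
  have h24 := card_le_24 h M hM.1
  have hd := Subgroup.card_subgroup_dvd_card M
  rw [h] at hd
  have hpos : 0 < Nat.card M := Nat.card_pos
  by_cases h7 : 7 ∣ Nat.card M
  · obtain ⟨x, hx, hMx⟩ := exists_normal7 h M hM h7
    right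
    rw [hMx, card_normalizer7 h x hx]
  · have h12 := F.card_ne_12 h M hM
    have h2 : ∀ k, Nat.card M ≠ 2 ^ k := fun k hk => F.not_two_group h M hM (IsPGroup.of_card hk)
    have h2a := h2 0
    have h2b := h2 1
    have h2c := h2 2
    have h2d := h2 3
    have h36 : Nat.card M ≠ 3 ∧ Nat.card M ≠ 6 := by
      have : Fact (Nat.Prime 3) := ⟨by norm_num⟩
      have key : ∀ m, m = 1 ∨ m = 2 → Nat.card M ≠ 3 * m := by
        intro m hm hc
        have hfac : Nat.card M = 3 ^ 1 * m := by rw [hc]; norm_num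
        have hm3 : ¬ 3 ∣ m := by omega
        have hn := card_sylow_mem (G := M) (p := 3) (a := 1) (m := m) hfac hm3
        have hn1 : Nat.card (Sylow 3 M) = 1 := by
          have := Nat.le_of_dvd (by omega) hn.1
          omega
        obtain ⟨x, hxM, hx, hMx⟩ := exists_normal_zpowers M hfac hm3 hn1
        obtain ⟨U, kU, hU⟩ := F.normalizer3_le h x hx
        have hc24 := F.card_normalizer_klein h U kU
        have := coatom_eq hM (hMx.trans hU) (by
          intro h0
          rw [h0, Subgroup.card_top, h] at hc24; omega)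
        rw [this, hc24] at hc
        omega
      exact ⟨key 1 (Or.inl rfl), key 2 (Or.inr rfl)⟩
    obtain ⟨h3, h6⟩ := h36
    left
    generalize Nat.card M = d at *
    interval_cases d <;> omega


theorem Facts.coatom_type [IsSimpleGroup G] (F : Facts G) (h : Nat.card G = 168) (M : Subgroup G)
    (hM : IsCoatom M) :
    Nonempty (↥M ≃* Equiv.Perm (Fin 4)) ∨ (Nat.card ↥M = 21 ∧ ¬ IsMulCommutative ↥M) := by
  rcases F.card_coatom h M hM with h24 | h21
  · left
    apply Cfsg.Agent.S1012.result h24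
    intro g hg
    rw [← Subgroup.orderOf_coe] at hg
    rcases F.orderOf_cases (g : G) with h1 | h1 | h1 | h1 | h1 <;> omega
  · right
    refine ⟨h21, fun hc => ?_⟩
    have : Fact (Nat.Prime 7) := ⟨by norm_num⟩
    obtain ⟨x, hx⟩ := exists_prime_orderOf_dvd_card' (G := M) 7 (by rw [h21]; norm_num)
    have hx' : orderOf (x : G) = 7 := by rw [Subgroup.orderOf_coe, hx]
    have hle : M ≤ centralizer ({(x : G)} : Set G) := fun m hm =>
      mem_centralizer_singleton_iff.2 (congrArg Subtype.val (hc.is_comm.comm ⟨m, hm⟩ x))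
    have := Subgroup.card_le_of_le hle
    rw [h21, F.cent7 h _ hx'] at this
    omega

theorem coatom21_conj [IsSimpleGroup G] (h : Nat.card G = 168) (M M' : Subgroup G) (hM : IsCoatom M)
    (hM' : IsCoatom M') (h21 : Nat.card M = 21) (h21' : Nat.card M' = 21) :
    ∃ g : G, M' = M.map (MulAut.conj g).toMonoidHom := by
  have : Fact (Nat.Prime 7) := ⟨by norm_num⟩
  obtain ⟨x, hx, hMx⟩ := exists_normal7 h M hM (by rw [h21]; norm_num)
  obtain ⟨x', hx', hMx'⟩ := exists_normal7 h M' hM' (by rw [h21']; norm_num)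
  obtain ⟨P, hP⟩ := exists_sylow_zpowers (p := 7) (m := 24) (by rw [h]; norm_num) (by norm_num) x hx
  obtain ⟨P', hP'⟩ := exists_sylow_zpowers (p := 7) (m := 24) (by rw [h]; norm_num) (by norm_num) x' hx'
  obtain ⟨g, hg⟩ := sylow_conj P P'
  refine ⟨g, ?_⟩
  rw [hMx', hMx, ← hP', hg, normalizer_map_conj, hP]

theorem Facts.eq_of_normal_four (F : Facts G) (h : Nat.card G = 168) (H A B : Subgroup G)
    (hH : Nat.card H = 24) (hA : Nat.card A = 4) (hB : Nat.card B = 4)
    (hHA : H ≤ normalizer (A : Set G)) (hHB : H ≤ normalizer (B : Set G)) (hAH : A ≤ H) : A = B := by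
  have : Fact (Nat.Prime 2) := ⟨by norm_num⟩
  have hpA : IsPGroup 2 A := IsPGroup.of_card (n := 2) (by rw [hA]; norm_num)
  have hpB : IsPGroup 2 B := IsPGroup.of_card (n := 2) (by rw [hB]; norm_num)
  have hp : IsPGroup 2 (A ⊔ B : Subgroup G) := IsPGroup.to_sup_of_normal_right' hpA hpB (hAH.trans hHB)
  obtain ⟨T, hT⟩ := hp.exists_le_sylow
  have hT8 := card_sylow2_coe h T
  have d1 := Subgroup.card_dvd_of_le hT
  have d2 := Subgroup.card_dvd_of_le (le_sup_left : A ≤ A ⊔ B)
  rw [hT8] at d1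
  rw [hA] at d2
  have hN : H ≤ normalizer ((A ⊔ B : Subgroup G) : Set G) := by
    intro g hg
    rw [mem_normalizer_iff_map_conj_eq, Subgroup.map_sup, mem_normalizer_iff_map_conj_eq.1 (hHA hg),
      mem_normalizer_iff_map_conj_eq.1 (hHB hg)]
  have hc : Nat.card (A ⊔ B : Subgroup G) = 4 ∨ Nat.card (A ⊔ B : Subgroup G) = 8 := by
    have := Nat.le_of_dvd (by norm_num) d1
    generalize Nat.card (A ⊔ B : Subgroup G) = d at *
    interval_cases d <;> omega
  rcases hc with h4 | h8
  · have e1 : A = A ⊔ B := Subgroup.eq_of_le_of_card_ge le_sup_left (by rw [h4, hA])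
    have e2 : B = A ⊔ B := Subgroup.eq_of_le_of_card_ge le_sup_right (by rw [h4, hB])
    exact e1.trans e2.symm
  · exfalso
    have e1 : (A ⊔ B : Subgroup G) = T := Subgroup.eq_of_le_of_card_ge hT (by rw [h8, hT8])
    rw [e1, F.sylow2_normalizer h T] at hN
    have := Subgroup.card_le_of_le hN
    omega

theorem exists_normal_klein [IsSimpleGroup G] (h : Nat.card G = 168) (M : Subgroup G)
    (hM : IsCoatom M) (e : ↥M ≃* Equiv.Perm (Fin 4)) :
    ∃ V : Subgroup G, IsKleinFour ↥V ∧ M = normalizer (V : Set G) := by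
  obtain ⟨f, hf⟩ : ∃ f : Equiv.Perm (Fin 4) →* G, f = M.subtype.comp e.symm.toMonoidHom := ⟨_, rfl⟩
  have hinj : Function.Injective f := by
    rw [hf]
    exact (Subgroup.subtype_injective _).comp e.symm.injective
  have hsurj : ∀ m ∈ M, ∃ a, f a = m := by
    intro m hm
    refine ⟨e ⟨m, hm⟩, ?_⟩
    rw [hf]; simp
  have hc : Nat.card (V4.map f) = 4 := by rw [Subgroup.card_map_of_injective hinj, card_V4]
  refine ⟨V4.map f, ?_, ?_⟩
  · rw [kf_iff]
    refine ⟨hc, ?_⟩
    rintro _ ⟨a, ha, rfl⟩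
    rw [← map_pow, ((mem_V4 a).1 ha).1, map_one]
  · apply coatom_eq hM _ (normalizer_ne_top h _ (by omega) (by omega))
    intro m hm
    obtain ⟨b, rfl⟩ := hsurj m hm
    apply mem_normalizer_of_conj_le
    rintro _ ⟨a, ha, rfl⟩
    exact ⟨b * a * b⁻¹, V4_conj b a ha, by simp⟩

theorem Facts.coatom_classes [IsSimpleGroup G] (F : Facts G) (h : Nat.card G = 168) :
    ∃ M₁ M₂ : Subgroup G, IsCoatom M₁ ∧ IsCoatom M₂ ∧ Nonempty (↥M₁ ≃* Equiv.Perm (Fin 4)) ∧
      Nonempty (↥M₂ ≃* Equiv.Perm (Fin 4)) ∧ (∀ g : G, M₂ ≠ M₁.map (MulAut.conj g).toMonoidHom) ∧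
      ∀ M : Subgroup G, IsCoatom M → Nonempty (↥M ≃* Equiv.Perm (Fin 4)) →
        ∃ g : G, M = M₁.map (MulAut.conj g).toMonoidHom ∨ M = M₂.map (MulAut.conj g).toMonoidHom := by
  have : Fact (Nat.Prime 2) := ⟨by norm_num⟩
  obtain ⟨T⟩ : Nonempty (Sylow 2 G) := inferInstance
  obtain ⟨U, W, hne, hU, hW, kU, kW, hall⟩ := F.klein_in_sylow h T
  have cU := F.card_normalizer_klein h U kU
  have cW := F.card_normalizer_klein h W kW
  refine ⟨normalizer (U : Set G), normalizer (W : Set G), isCoatom_of_card_24 h _ cU,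
    isCoatom_of_card_24 h _ cW, F.normalizer_klein_iso h U kU, F.normalizer_klein_iso h W kW, ?_, ?_⟩
  · intro g hg
    rw [← normalizer_map_conj] at hg
    have := F.eq_of_normal_four h (normalizer (W : Set G)) W (U.map (MulAut.conj g).toMonoidHom) cW
      kW.card_four (kf_map g kU).card_four le_rfl hg.le le_normalizer
    exact F.klein_not_conj h T U W hU hW kU kW hne g this.symm
  · rintro M hM ⟨e⟩
    obtain ⟨V, kV, hMV⟩ := exists_normal_klein h M hM e
    have hp : IsPGroup 2 V := IsPGroup.of_card (n := 2) (by rw [kV.card_four]; norm_num)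
    obtain ⟨T', hVT'⟩ := hp.exists_le_sylow
    obtain ⟨k, hk⟩ := sylow_conj T T'
    have hback : (V.map (MulAut.conj k⁻¹).toMonoidHom).map (MulAut.conj k).toMonoidHom = V := by
      rw [Subgroup.map_map]
      have : (MulAut.conj k).toMonoidHom.comp (MulAut.conj k⁻¹).toMonoidHom = MonoidHom.id G := by
        ext x; simp [mul_assoc]
      rw [this, Subgroup.map_id]
    have hle : V.map (MulAut.conj k⁻¹).toMonoidHom ≤ (T : Subgroup G) := by
      rintro _ ⟨v, hv, rfl⟩
      have h1 := hVT' hv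
      rw [hk] at h1
      obtain ⟨t, ht, htv⟩ := h1
      have : (MulAut.conj k⁻¹).toMonoidHom v = t := by
        rw [← htv]; simp [mul_assoc]
      rw [this]; exact ht
    refine ⟨k, ?_⟩
    rcases hall _ hle (kf_map k⁻¹ kV) with h1 | h1
    · left
      rw [hMV, ← normalizer_map_conj, ← h1, hback]
    · right
      rw [hMV, ← normalizer_map_conj, ← h1, hback]

end Max

end Cfsg.Agent.Lib.Helper89.G168
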