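import Mathlib
import Cfsg.Agent.Lib.Helper89.TTClass
import Cfsg.Agent.Lib.Helper89.WidthOne
import Cfsg.Agent.Lib.Helper31.GenFitting
import Cfsg.Agent.Lib.Helper31.LocalLayer
import Cfsg.Agent.Lib.Helper1.Fitting

set_option autoImplicit false

/-!
# Normal subgroups of groups generated by a class of 3-transpositions
-/

namespace Cfsg.Agent.Lib.Helper89

open Cfsg.Agent.Lib.Helper8
open scoped commutatorElement

variable {G : Type*} [Group G] {D : Set G}

/-- the product of `d` and its conjugate by `x` -/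
def cc (d x : G) : G := d * (x * d * x⁻¹)

theorem cc_mem_normal {X : Subgroup G} [hX : X.Normal] {d x : G} (hd2 : d * d = 1) (hx : x ∈ X) :
    cc d x ∈ X := by
  have hdi : d⁻¹ = d := inv_eq_of_mul_eq_one_left hd2
  have : cc d x = (d * x * d⁻¹) * x⁻¹ := by rw [cc, hdi]; group
  rw [this]
  exact X.mul_mem (hX.conj_mem x hx d) (X.inv_mem hx)

theorem cc_mul {d x y : G} (hd2 : d * d = 1) (h : Commute x (cc d y)) :
    cc d (x * y) = cc d x * cc d y := by
  have h1 : x * cc d y * x⁻¹ = cc d y := by rw [h.eq]; group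
  calc cc d (x * y) = d * x * (d * d) * y * d * y⁻¹ * x⁻¹ := by rw [hd2, cc]; group
    _ = cc d x * (x * cc d y * x⁻¹) := by simp only [cc]; group
    _ = cc d x * cc d y := by rw [h1]

theorem cc_eq_one_iff {d x : G} (hd2 : d * d = 1) : cc d x = 1 ↔ Commute d x := by
  constructor
  · intro h
    show d * x = x * d
    calc d * x = d * x * (d * d) := by rw [hd2, mul_one]
      _ = cc d x * x * d := by simp only [cc]; group
      _ = x * d := by rw [h, one_mul]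
  · intro h
    rw [cc, ← h.eq]
    calc d * (d * x * x⁻¹) = d * d := by group
      _ = 1 := hd2

theorem cc_sq_or_cube (hD : Cfsg.IsThreeTranspositionClass D) {d : G} (hd : d ∈ D) (x : G) :
    cc d x ^ 2 = 1 ∨ cc d x ^ 3 = 1 :=
  hD.1.2 d hd _ (ttc_conj_mem hD x hd)

theorem le_center_of_commute (hD : Cfsg.IsThreeTranspositionClass D) {d : G} (hd : d ∈ D)
    {X : Subgroup G} [hX : X.Normal] (h : ∀ x ∈ X, Commute d x) : X ≤ Subgroup.center G := by
  intro x hx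
  have hle : Subgroup.closure D ≤ Subgroup.centralizer {x} := by
    rw [Subgroup.closure_le]
    intro e he
    obtain ⟨g, rfl⟩ := ttc_isConj hD hd he
    rw [SetLike.mem_coe, Subgroup.mem_centralizer_singleton_iff]
    have h1 := h _ (hX.conj_mem x hx g⁻¹)
    have h2 := (Commute.conj_iff g).mpr h1
    have e1 : g * (g⁻¹ * x * g⁻¹⁻¹) * g⁻¹ = x := by group
    rw [e1] at h2
    exact h2.eq
  rw [hD.2.2] at hle
  rw [Subgroup.mem_center_iff]
  intro g
  have := hle (Subgroup.mem_top g)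
  rw [Subgroup.mem_centralizer_singleton_iff] at this
  exact this

theorem exists_cc_ne_one (hD : Cfsg.IsThreeTranspositionClass D) {d : G} (hd : d ∈ D)
    {X : Subgroup G} [hX : X.Normal] (h : ¬ X ≤ Subgroup.center G) : ∃ x ∈ X, cc d x ≠ 1 := by
  by_contra hcon
  push Not at hcon
  exact h (le_center_of_commute hD hd
    (fun x hx => (cc_eq_one_iff (tt_mul_self hD.1 hd)).mp (hcon x hx)))

/-- Commuting normal subgroups: the commutators with `d` cannot have orders `2` and `3`. -/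
theorem cc_order_compat (hD : Cfsg.IsThreeTranspositionClass D) {d : G} (hd : d ∈ D)
    {X Y : Subgroup G} [X.Normal] [Y.Normal] (hXY : ∀ x ∈ X, ∀ y ∈ Y, Commute x y) {x y : G}
    (hx : x ∈ X) (hy : y ∈ Y) (hx1 : cc d x ≠ 1) (hx2 : cc d x ^ 2 = 1) (hy1 : cc d y ≠ 1)
    (hy3 : cc d y ^ 3 = 1) : False := by
  have hd2 := tt_mul_self hD.1 hd
  have hm := cc_mul hd2 (hXY x hx _ (cc_mem_normal hd2 hy))
  have hc : Commute (cc d x) (cc d y) := hXY _ (cc_mem_normal hd2 hx) _ (cc_mem_normal hd2 hy)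
  rcases cc_sq_or_cube hD hd (x * y) with h | h
  · rw [hm, hc.mul_pow, hx2, one_mul] at h
    apply hy1
    calc cc d y = cc d y ^ 3 * (cc d y ^ 2)⁻¹ := by group
      _ = 1 := by rw [hy3, h]; simp
  · rw [hm, hc.mul_pow, hy3, mul_one] at h
    apply hx1
    calc cc d x = cc d x ^ 3 * (cc d x ^ 2)⁻¹ := by group
      _ = 1 := by rw [hx2, h]; simp

/-- the stabilizer of a set under conjugation -/
def conjStab (S : Set G) : Subgroup G where
  carrier := {g | ∀ p, g * p * g⁻¹ ∈ S ↔ p ∈ S}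
  one_mem' := by intro p; simp
  mul_mem' := by
    intro a b ha hb p
    have : a * b * p * (a * b)⁻¹ = a * (b * p * b⁻¹) * a⁻¹ := by group
    rw [this, ha, hb]
  inv_mem' := by
    intro a ha p
    rw [← ha]
    have : a * (a⁻¹ * p * a⁻¹⁻¹) * a⁻¹ = p := by group
    rw [this]

theorem mem_conjStab {S : Set G} {g : G} : g ∈ conjStab S ↔ ∀ p, g * p * g⁻¹ ∈ S ↔ p ∈ S := Iff.rfl

/-- relative form of the width one theorem -/
theorem exists_three_subgroup [Finite G] (H : Subgroup G) {D₀ : Set G} (hsub : D₀ ⊆ H)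
    (h2 : ∀ p ∈ D₀, p * p = 1) (hconj : ∀ g ∈ H, ∀ p ∈ D₀, g * p * g⁻¹ ∈ D₀)
    (hbr : ∀ p ∈ D₀, ∀ q ∈ D₀, p * q * p = q * p * q) :
    ∃ N : Subgroup G, N ≤ H ∧ IsPGroup 3 N ∧ (∀ g ∈ H, ∀ n ∈ N, g * n * g⁻¹ ∈ N) ∧
      ∀ a ∈ D₀, ∀ b ∈ D₀, a * b ∈ N := by
  refine ⟨(Cfsg.pCore 3 H).map H.subtype, Subgroup.map_subtype_le _,
    (Cfsg.Agent.Lib.Lead.pCore_isPGroup 3 H).map _, ?_, ?_⟩
  · rintro g hg _ ⟨n, hn, rfl⟩
    have hN := Cfsg.Agent.Lib.Lead.pCore_normal' 3 H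
    exact ⟨⟨g, hg⟩ * n * ⟨g, hg⟩⁻¹, hN.conj_mem n hn _, rfl⟩
  · intro a ha b hb
    have := mul_mem_pCore_three (G := H) (D := {p : H | (p : G) ∈ D₀})
      (fun p hp => Subtype.ext (h2 _ hp)) (fun g p hp => hconj g g.2 p hp)
      (fun p hp q hq => Subtype.ext (hbr _ hp _ hq)) (a := ⟨a, hsub ha⟩) (b := ⟨b, hsub hb⟩) ha hb
    exact ⟨_, this, rfl⟩

theorem conj_class_mem_conjStab {X : Subgroup G} [hX : X.Normal] {d : G} (hd2 : d * d = 1) :
    X ≤ conjStab {p | ∃ x ∈ X, p = x * d * x⁻¹} ∧ d ∈ conjStab {p | ∃ x ∈ X, p = x * d * x⁻¹} := by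
  have hdi : d⁻¹ = d := inv_eq_of_mul_eq_one_left hd2
  constructor
  · intro g hg p
    constructor
    · rintro ⟨x, hx, h⟩
      refine ⟨g⁻¹ * x, X.mul_mem (X.inv_mem hg) hx, ?_⟩
      calc p = g⁻¹ * (g * p * g⁻¹) * g := by group
        _ = g⁻¹ * x * d * (g⁻¹ * x)⁻¹ := by rw [h]; group
    · rintro ⟨x, hx, rfl⟩
      exact ⟨g * x, X.mul_mem hg hx, by group⟩
  · intro p
    constructor
    · rintro ⟨x, hx, h⟩
      refine ⟨d * x * d⁻¹, hX.conj_mem x hx d, ?_⟩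
      calc p = d⁻¹ * (d * p * d⁻¹) * d := by group
        _ = d⁻¹ * (x * d * x⁻¹) * d := by rw [h]
        _ = d * (x * d * x⁻¹) * d⁻¹ := by rw [hdi]
        _ = d * x * d⁻¹ * d * (d * x * d⁻¹)⁻¹ := by group
    · rintro ⟨x, hx, rfl⟩
      exact ⟨d * x * d⁻¹, hX.conj_mem x hx d, by group⟩

theorem cc_mem_pCore_two (hD : Cfsg.IsThreeTranspositionClass D) {d : G} (hd : d ∈ D)
    {X : Subgroup G} [hX : X.Normal] (h : ∀ x ∈ X, cc d x ^ 2 = 1) :
    ∀ x ∈ X, cc d x ∈ Cfsg.pCore 2 G := by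
  have hd2 := tt_mul_self hD.1 hd
  set S : Set G := {p | ∃ x ∈ X, p = x * d * x⁻¹} with hS
  have hSD : ∀ p ∈ S, p ∈ D := by
    rintro p ⟨x, -, rfl⟩; exact ttc_conj_mem hD x hd
  have hE : IsPGroup 2 (Subgroup.closure S) := by
    apply isPGroup_closure_of_commute
    · intro p hp; exact tt_mul_self hD.1 (hSD p hp)
    · rintro p ⟨x, hx, rfl⟩ q ⟨y, hy, rfl⟩
      have h1 := h (x⁻¹ * y) (X.mul_mem (X.inv_mem hx) hy)
      have h2 : Commute d ((x⁻¹ * y) * d * (x⁻¹ * y)⁻¹) :=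
        commute_of_sq hd2 (tt_mul_self hD.1 (ttc_conj_mem hD _ hd)) h1
      have h3 := (Commute.conj_iff x).mpr h2
      have e1 : x * ((x⁻¹ * y) * d * (x⁻¹ * y)⁻¹) * x⁻¹ = y * d * y⁻¹ := by group
      rw [e1] at h3
      exact h3.eq
  have hst := (conj_class_mem_conjStab (X := X) hd2).1
  have hnorm : ∀ k ∈ X, ∀ e ∈ Subgroup.closure S, k * e * k⁻¹ ∈ Subgroup.closure S := by
    intro k hk e he
    induction he using Subgroup.closure_induction with
    | mem e he => exact Subgroup.subset_closure ((hst hk e).mpr he)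
    | one => simp
    | mul x y _ _ ihx ihy =>
      have : k * (x * y) * k⁻¹ = (k * x * k⁻¹) * (k * y * k⁻¹) := by group
      rw [this]; exact Subgroup.mul_mem _ ihx ihy
    | inv x _ ih =>
      have : k * x⁻¹ * k⁻¹ = (k * x * k⁻¹)⁻¹ := by group
      rw [this]; exact Subgroup.inv_mem _ ih
  have hsub : (Subgroup.closure S ⊓ X).IsSubnormal := by
    refine Subgroup.IsSubnormal.step _ X inf_le_right hX.isSubnormal ?_
    constructor
    rintro ⟨n, hn⟩ hn' ⟨g, hg⟩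
    rw [Subgroup.mem_subgroupOf] at hn' ⊢
    exact ⟨hnorm g hg n hn'.1, X.mul_mem (X.mul_mem hg hn) (X.inv_mem hg)⟩
  have hle := Cfsg.Agent.Lib.Helper30.subnormal_pGroup_le_pCore 2 hsub (hE.to_le inf_le_left)
  intro x hx
  apply hle
  refine ⟨Subgroup.mul_mem _ (Subgroup.subset_closure ⟨1, X.one_mem, by simp⟩)
    (Subgroup.subset_closure ⟨x, hx, rfl⟩), cc_mem_normal hd2 hx⟩

theorem cc_mem_pCore_three [Finite G] (hD : Cfsg.IsThreeTranspositionClass D) {d : G} (hd : d ∈ D)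
    {X : Subgroup G} [hX : X.Normal] (h : ∀ x ∈ X, cc d x ^ 3 = 1) :
    ∀ x ∈ X, cc d x ∈ Cfsg.pCore 3 G := by
  have hd2 := tt_mul_self hD.1 hd
  set S : Set G := {p | ∃ x ∈ X, p = x * d * x⁻¹} with hS
  have hSD : ∀ p ∈ S, p ∈ D := by
    rintro p ⟨x, -, rfl⟩; exact ttc_conj_mem hD x hd
  obtain ⟨hst1, hst2⟩ := conj_class_mem_conjStab (X := X) hd2
  obtain ⟨N, -, hN3, hNn, hN⟩ := exists_three_subgroup (conjStab S) (D₀ := S)
    (by
      rintro p ⟨x, hx, rfl⟩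
      exact Subgroup.mul_mem _ (Subgroup.mul_mem _ (hst1 hx) hst2) (Subgroup.inv_mem _ (hst1 hx)))
    (fun p hp => tt_mul_self hD.1 (hSD p hp))
    (fun g hg p hp => (hg p).mpr hp)
    (by
      rintro p ⟨x, hx, rfl⟩ q ⟨y, hy, rfl⟩
      have h1 := h (x⁻¹ * y) (X.mul_mem (X.inv_mem hx) hy)
      have h2 := braid_of_cube hd2 (tt_mul_self hD.1 (ttc_conj_mem hD (x⁻¹ * y) hd)) h1
      have h3 := congrArg (fun t => x * t * x⁻¹) h2
      calc x * d * x⁻¹ * (y * d * y⁻¹) * (x * d * x⁻¹)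
          = x * (d * (x⁻¹ * y * d * (x⁻¹ * y)⁻¹) * d) * x⁻¹ := by group
        _ = x * (x⁻¹ * y * d * (x⁻¹ * y)⁻¹ * d * (x⁻¹ * y * d * (x⁻¹ * y)⁻¹)) * x⁻¹ := h3
        _ = y * d * y⁻¹ * (x * d * x⁻¹) * (y * d * y⁻¹) := by group)
  have hsub : (N ⊓ X).IsSubnormal := by
    refine Subgroup.IsSubnormal.step _ X inf_le_right hX.isSubnormal ?_
    constructor
    rintro ⟨n, hn⟩ hn' ⟨g, hg⟩
    rw [Subgroup.mem_subgroupOf] at hn' ⊢
    exact ⟨hNn g (hst1 hg) n hn'.1, X.mul_mem (X.mul_mem hg hn) (X.inv_mem hg)⟩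
  have hle := Cfsg.Agent.Lib.Helper30.subnormal_pGroup_le_pCore 3 hsub (hN3.to_le inf_le_left)
  intro x hx
  apply hle
  exact ⟨hN d ⟨1, X.one_mem, by simp⟩ _ ⟨x, hx, rfl⟩, cc_mem_normal hd2 hx⟩

theorem zpowers_cases {d a : G} (hd2 : d * d = 1) (ha : a ∈ Subgroup.zpowers d) : a = 1 ∨ a = d := by
  obtain ⟨k, rfl⟩ := Subgroup.mem_zpowers_iff.mp ha
  rcases Int.even_or_odd' k with ⟨m, rfl | rfl⟩
  · left
    rw [zpow_mul, zpow_ofNat, pow_two, hd2, one_zpow]
  · right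
    rw [zpow_add, zpow_mul, zpow_ofNat, pow_two, hd2, one_zpow, one_mul, zpow_one]

/-- If all `[d, y]`, `y ∈ Y`, centralize the perfect subgroup `Y`, then `d` centralizes `Y`. -/
theorem commute_of_cc_central {Y : Subgroup G} (hperf : ⁅Y, Y⁆ = Y) {d : G} (hd2 : d * d = 1)
    (h : ∀ y ∈ Y, ∀ y' ∈ Y, Commute (cc d y) y') : ∀ y ∈ Y, Commute d y := by
  have hdi : d⁻¹ = d := inv_eq_of_mul_eq_one_left hd2
  have h1 : ⁅Subgroup.zpowers d, Y⁆ ≤ Subgroup.centralizer (Y : Set G) := by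
    rw [Subgroup.commutator_le]
    intro a ha y hy
    rcases zpowers_cases hd2 ha with rfl | rfl
    · simp
    · rw [Subgroup.mem_centralizer_iff]
      intro y' hy'
      have : ⁅a, y⁆ = cc a y := by
        rw [commutatorElement_def, cc, hdi]; group
      rw [this]
      exact (h y hy y' hy').eq.symm
  have h2 := Cfsg.Agent.Lib.Helper31.commutator_eq_bot_of_perfect hperf
    (Subgroup.commutator_eq_bot_iff_le_centralizer.mpr h1)
  rw [Subgroup.commutator_eq_bot_iff_le_centralizer] at h2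
  intro y hy
  have := h2 (Subgroup.mem_zpowers d)
  rw [Subgroup.mem_centralizer_iff] at this
  exact (this y hy).symm

theorem eq_one_of_pGroup_of_pow {p q : ℕ} (hpq : Nat.Coprime p q) {N : Subgroup G}
    (hN : IsPGroup p N) {t : G} (ht : t ∈ N) (hq : t ^ q = 1) : t = 1 := by
  obtain ⟨k, hk⟩ := hN ⟨t, ht⟩
  have hk' : t ^ p ^ k = 1 := by simpa using congrArg Subtype.val hk
  have h1 : orderOf t ∣ p ^ k := orderOf_dvd_of_pow_eq_one hk'
  have h2 : orderOf t ∣ q := orderOf_dvd_of_pow_eq_one hq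
  exact orderOf_eq_one_iff.mp (Nat.eq_one_of_dvd_coprimes (Nat.Coprime.pow_left k hpq) h1 h2)

theorem layer_perfect : ⁅Cfsg.layer G, Cfsg.layer G⁆ = Cfsg.layer G := by
  apply le_antisymm (Subgroup.commutator_le_self _)
  apply sSup_le
  intro L hL
  have h1 := Cfsg.Agent.Lib.Helper31.IsComponent.perfect hL
  have h2 := Cfsg.Agent.Lib.Helper31.IsComponent.le_layer hL
  calc L = ⁅L, L⁆ := h1.symm
    _ ≤ _ := Subgroup.commutator_mono h2 h2

theorem exists_component_of_layer_ne_bot (h : Cfsg.layer G ≠ ⊥) :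
    ∃ L : Subgroup G, Cfsg.IsComponent L := by
  by_contra hcon
  push Not at hcon
  apply h
  rw [Cfsg.layer, eq_bot_iff]
  apply sSup_le
  intro L hL
  exact absurd hL (hcon L)

/-- A perfect normal subgroup not centralized by `d` has `[d, y]` of order two and of order three,
provided the cores `O_2` and `O_3` centralize it. -/
theorem commute_of_forall_cc_pow [Finite G] (hD : Cfsg.IsThreeTranspositionClass D) {d : G}
    (hd : d ∈ D) {Y : Subgroup G} [Y.Normal] (hperf : ⁅Y, Y⁆ = Y)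
    (hc2 : ∀ n ∈ Cfsg.pCore 2 G, ∀ y ∈ Y, Commute n y)
    (hc3 : ∀ n ∈ Cfsg.pCore 3 G, ∀ y ∈ Y, Commute n y)
    (h : (∀ y ∈ Y, cc d y ^ 2 = 1) ∨ (∀ y ∈ Y, cc d y ^ 3 = 1)) : ∀ y ∈ Y, Commute d y := by
  apply commute_of_cc_central hperf (tt_mul_self hD.1 hd)
  rcases h with h | h
  · intro y hy y' hy'
    exact hc2 _ (cc_mem_pCore_two hD hd h y hy) y' hy'
  · intro y hy y' hy'
    exact hc3 _ (cc_mem_pCore_three hD hd h y hy) y' hy'

end Cfsg.Agent.Lib.Helper89
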