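import Mathlib
import Cfsg.Agent.Lib.Helper89.TTNormal
import Cfsg.Agent.S0199

/-!
# A relative form of the Baer–Suzuki theorem for involutions
-/

set_option autoImplicit false

namespace Cfsg.Agent.Lib.Helper89

variable {G : Type*} [Group G]

/-- Relative Baer–Suzuki: if `X` is normal in `G` and the element `d` (of order dividing two)
generates a 2-group together with each of its `X`-conjugates, then `[d, X] ≤ O₂(G)`. -/
theorem cc_mem_pCore_two_of_pairs [Finite G] {d : G} (hd2 : d * d = 1)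
    {X : Subgroup G} [hX : X.Normal]
    (h : ∀ x ∈ X, IsPGroup 2 (Subgroup.closure ({d, x * d * x⁻¹} : Set G))) :
    ∀ x ∈ X, cc d x ∈ Cfsg.pCore 2 G := by
  have : Fact (Nat.Prime 2) := ⟨Nat.prime_two⟩
  set S : Set G := {p | ∃ x ∈ X, p = x * d * x⁻¹} with hS
  obtain ⟨hst1, hst2⟩ := conj_class_mem_conjStab (X := X) hd2
  set H := conjStab S with hH
  have hdS : d ∈ S := ⟨1, X.one_mem, by simp⟩
  set d' : H := ⟨d, hst2⟩ with hd'
  have hX' : IsPGroup 2 (Subgroup.zpowers d') := by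
    intro y
    refine ⟨1, ?_⟩
    obtain ⟨y, hy⟩ := y
    apply Subtype.ext
    have hd'2 : d' * d' = 1 := Subtype.ext hd2
    rcases zpowers_cases hd'2 hy with rfl | rfl
    · simp
    · simpa [pow_two] using hd'2
  obtain ⟨N, hN, hN2, hle⟩ := Cfsg.Agent.S0199.result (Subgroup.zpowers d') hX' (by
    intro g
    obtain ⟨x, hx, hgx⟩ : (g : G) * d * (g : G)⁻¹ ∈ S := (g.2 d).2 hdS
    have h1 := (h x hx).comap_of_injective H.subtype H.subtype_injective
    refine h1.to_le ?_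
    refine sup_le ?_ ?_
    · rw [Subgroup.zpowers_le, Subgroup.mem_comap]
      exact Subgroup.subset_closure (by simp [hd'])
    · rw [MonoidHom.map_zpowers, Subgroup.zpowers_le, Subgroup.mem_comap]
      apply Subgroup.subset_closure
      right
      simp only [MulEquiv.coe_toMonoidHom, MulAut.conj_apply, Subgroup.subtype_apply,
        Subgroup.coe_mul, Subgroup.coe_inv, hd', Set.mem_singleton_iff]
      exact hgx)
  have hdN : d' ∈ N := hle (Subgroup.mem_zpowers d')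
  set N₀ := N.map H.subtype with hN₀
  have hN₀2 : IsPGroup 2 N₀ := hN2.map _
  have hNn : ∀ g ∈ H, ∀ n ∈ N₀, g * n * g⁻¹ ∈ N₀ := by
    rintro g hg _ ⟨n, hn, rfl⟩
    exact ⟨⟨g, hg⟩ * n * ⟨g, hg⟩⁻¹, hN.conj_mem n hn _, rfl⟩
  have hdN₀ : d ∈ N₀ := ⟨d', hdN, rfl⟩
  have hsub : (N₀ ⊓ X).IsSubnormal := by
    refine Subgroup.IsSubnormal.step _ X inf_le_right hX.isSubnormal ?_
    constructor
    rintro ⟨n, hn⟩ hn' ⟨g, hg⟩
    rw [Subgroup.mem_subgroupOf] at hn' ⊢
    exact ⟨hNn g (hst1 hg) n hn'.1, X.mul_mem (X.mul_mem hg hn) (X.inv_mem hg)⟩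
  have hle' := Cfsg.Agent.Lib.Helper30.subnormal_pGroup_le_pCore 2 hsub (hN₀2.to_le inf_le_left)
  intro x hx
  apply hle'
  exact ⟨mul_mem hdN₀ (hNn x (hst1 hx) d hdN₀), cc_mem_normal hd2 hx⟩

end Cfsg.Agent.Lib.Helper89
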