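import Mathlib
import Cfsg.Prelude.Def_RootSubgroups

/-!
# Basic lemmas on sets of root involutions
-/

set_option autoImplicit false

namespace Cfsg.Agent.Lib.Helper89.RootInv

variable {G : Type*} [Group G] {D : Set G}

theorem sq (hD : Cfsg.IsRootInvolutionSet D) {d : G} (hd : d ∈ D) : d * d = 1 := by
  have := pow_orderOf_eq_one d
  rwa [hD.orderOf_eq d hd, pow_two] at this

theorem inv (hD : Cfsg.IsRootInvolutionSet D) {d : G} (hd : d ∈ D) : d⁻¹ = d :=
  inv_eq_of_mul_eq_one_left (sq hD hd)

theorem ne_one (hD : Cfsg.IsRootInvolutionSet D) {d : G} (hd : d ∈ D) : d ≠ 1 := by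
  rintro rfl
  have := hD.orderOf_eq 1 hd
  simp at this

theorem orderOf_mul_swap {a b : G} (ha : a * a = 1) (hb : b * b = 1) :
    orderOf (a * b) = orderOf (b * a) := by
  have : (a * b)⁻¹ = b * a := by
    rw [mul_inv_rev, inv_eq_of_mul_eq_one_left ha, inv_eq_of_mul_eq_one_left hb]
  rw [← this, orderOf_inv]

theorem orderOf_conj_mul (g a b : G) :
    orderOf ((g * a * g⁻¹) * (g * b * g⁻¹)) = orderOf (a * b) := by
  have : (g * a * g⁻¹) * (g * b * g⁻¹) = MulAut.conj g (a * b) := by
    rw [MulAut.conj_apply]; group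
  rw [this, MulEquiv.orderOf_eq]

theorem oddAdj_symm (hD : Cfsg.IsRootInvolutionSet D) {a b : G} (h : Cfsg.OddAdj D a b) :
    Cfsg.OddAdj D b a :=
  ⟨h.2.1, h.1, h.2.2.1.symm, by rw [orderOf_mul_swap (sq hD h.2.1) (sq hD h.1)]; exact h.2.2.2⟩

theorem oddAdj_conj (hD : Cfsg.IsRootInvolutionSet D) (g : G) {a b : G} (h : Cfsg.OddAdj D a b) :
    Cfsg.OddAdj D (g * a * g⁻¹) (g * b * g⁻¹) :=
  ⟨hD.conj_mem a h.1 g, hD.conj_mem b h.2.1 g, fun hh => h.2.2.1 (by simpa using hh),
    by rw [orderOf_conj_mul]; exact h.2.2.2⟩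

/-- commuting involutions whose product has odd order are equal -/
theorem eq_of_commute_of_odd {a b : G} (ha : a * a = 1) (hb : b * b = 1) (hc : a * b = b * a)
    (ho : Odd (orderOf (a * b))) : a = b := by
  have h2 : (a * b) ^ 2 = 1 := by
    rw [pow_two]
    calc a * b * (a * b) = a * (b * a) * b := by group
      _ = a * (a * b) * b := by rw [hc]
      _ = (a * a) * (b * b) := by group
      _ = 1 := by rw [ha, hb, one_mul]
  have h3 := orderOf_dvd_of_pow_eq_one h2
  have h4 : orderOf (a * b) = 1 := by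
    rcases (Nat.dvd_prime Nat.prime_two).1 h3 with h | h
    · exact h
    · rw [h] at ho; exact absurd ho (by decide)
  rw [orderOf_eq_one_iff] at h4
  rw [eq_inv_of_mul_eq_one_left h4, inv_eq_of_mul_eq_one_left hb]

/-- an element of odd order commutes with `x` as soon as its square does -/
theorem commute_of_commute_sq {u x : G} (ho : Odd (orderOf u)) (h : Commute x (u ^ 2)) :
    Commute x u := by
  obtain ⟨k, hk⟩ := ho
  have h1 : (u ^ 2) ^ (k + 1) = u := by
    rw [← pow_mul]
    have : 2 * (k + 1) = orderOf u + 1 := by omega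
    rw [this, pow_succ, pow_orderOf_eq_one, one_mul]
  have := h.pow_right (k + 1)
  rwa [h1] at this

/-- The key computation: if `a`, `e`, `f` are involutions, `a` and `e` commute, `(f a)⁴ = 1`,
`(f a e)⁴ = 1` and `f e` has odd order, then `f` and `e` commute. -/
theorem commute_of_four_four {a e f : G} (ha : a * a = 1) (he : e * e = 1) (hf : f * f = 1)
    (hae : a * e = e * a) (h1 : (f * a) ^ 4 = 1) (h2 : (f * (a * e)) ^ 4 = 1)
    (ho : Odd (orderOf (f * e))) : f * e = e * f := by
  have hai : a⁻¹ = a := inv_eq_of_mul_eq_one_left ha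
  have hei : e⁻¹ = e := inv_eq_of_mul_eq_one_left he
  have hfi : f⁻¹ = f := inv_eq_of_mul_eq_one_left hf
  -- general fact on two involutions with `(f b)⁴ = 1`
  have gen : ∀ b : G, b * b = 1 → (f * b) ^ 4 = 1 →
      f * b * f * b = b * f * b * f ∧ Commute f (f * b * f * b) := by
    intro b hb h
    have hbi : b⁻¹ = b := inv_eq_of_mul_eq_one_left hb
    have e1 : f * b * f * b = b * f * b * f := by
      have h3 : (f * b * f * b) * (f * b * f * b) = 1 := by
        rw [← h]; simp only [pow_succ, pow_zero, one_mul, mul_assoc]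
      have h4 := eq_inv_of_mul_eq_one_left h3
      rw [h4]
      simp only [mul_inv_rev, hbi, hfi, mul_assoc]
    refine ⟨e1, ?_⟩
    show f * (f * b * f * b) = (f * b * f * b) * f
    calc f * (f * b * f * b) = (f * f) * b * f * b := by group
      _ = b * f * b := by rw [hf, one_mul]
      _ = b * f * b * (f * f) := by rw [hf, mul_one]
      _ = (b * f * b * f) * f := by group
      _ = (f * b * f * b) * f := by rw [e1]
  have hb : (a * e) * (a * e) = 1 := by
    calc a * e * (a * e) = a * (e * a) * e := by group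
      _ = a * (a * e) * e := by rw [hae]
      _ = (a * a) * (e * e) := by group
      _ = 1 := by rw [ha, he, one_mul]
  obtain ⟨s1, cs⟩ := gen a ha h1
  obtain ⟨-, ct⟩ := gen (a * e) hb h2
  -- `s * t = a (f e)² a⁻¹`
  have hst : (f * a * f * a) * (f * (a * e) * f * (a * e)) = a * (f * e) ^ 2 * a⁻¹ := by
    rw [s1, hai, pow_two]
    calc a * f * a * f * (f * (a * e) * f * (a * e))
        = a * f * a * (f * f) * a * e * f * (a * e) := by group
      _ = a * f * (a * a) * e * f * (a * e) := by rw [hf]; group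
      _ = a * f * e * f * (e * a) := by rw [ha, hae]; group
      _ = a * (f * e * (f * e)) * a := by group
  have c3 : Commute f (a * (f * e) ^ 2 * a⁻¹) := by
    rw [← hst]; exact cs.mul_right ct
  have c4 : Commute (a⁻¹ * f * a) ((f * e) ^ 2) := by
    have h5 : a * (a⁻¹ * f * a) * a⁻¹ = f := by group
    apply (Commute.conj_iff a).1
    rw [h5]
    exact c3
  have c5 : Commute (a⁻¹ * f * a) (f * e) := commute_of_commute_sq ho c4
  -- `a f a = f s = s f`
  have h6 : a⁻¹ * f * a = (f * a * f * a) * f := by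
    rw [s1, hai]
    calc a * f * a = a * f * a * (f * f) := by rw [hf, mul_one]
      _ = a * f * a * f * f := by group
  have h7 : a⁻¹ * f * a = f * (f * a * f * a) := by rw [h6]; exact cs.eq.symm
  have c6 : Commute (a⁻¹ * f * a) e := by
    show a⁻¹ * f * a * e = e * (a⁻¹ * f * a)
    have h8 : (a⁻¹ * f * a) * (f * e) = (f * e) * (a⁻¹ * f * a) := c5.eq
    have h9 : (a⁻¹ * f * a) * (f * e) = (f * a * f * a) * e := by
      rw [h6]
      calc f * a * f * a * f * (f * e) = f * a * f * a * (f * f) * e := by group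
        _ = f * a * f * a * e := by rw [hf, mul_one]
    calc a⁻¹ * f * a * e = f * ((f * a * f * a) * e) := by rw [h7]; group
      _ = f * ((f * e) * (a⁻¹ * f * a)) := by rw [← h9, h8]
      _ = (f * f) * e * (a⁻¹ * f * a) := by group
      _ = e * (a⁻¹ * f * a) := by rw [hf, one_mul]
  have c7 := (Commute.conj_iff a).2 c6
  have h10 : a * (a⁻¹ * f * a) * a⁻¹ = f := by group
  have h11 : a * e * a⁻¹ = e := by rw [hae]; group
  rw [h10, h11] at c7
  exact c7.eq

/-- If `{a, e, a e} ⊆ D`, `f ∈ D` commutes with `a` and `f e` has odd order, then `f = e`. -/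
theorem eq_of_commute_partner (hD : Cfsg.IsRootInvolutionSet D) {a e f : G} (ha : a ∈ D)
    (he : e ∈ D) (hf : f ∈ D) (hae : a * e = e * a) (haeD : a * e ∈ D) (hfa : f * a = a * f)
    (ho : Odd (orderOf (f * e))) : f = e := by
  have ho' : Odd (orderOf (e * f)) := by
    rw [orderOf_mul_swap (sq hD he) (sq hD hf)]; exact ho
  have hcomm : Commute a (e * f) := by
    show a * (e * f) = e * f * a
    calc a * (e * f) = (a * e) * f := by group
      _ = e * (a * f) := by rw [hae]; group
      _ = e * f * a := by rw [← hfa]; group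
  have hcop : Nat.Coprime (orderOf a) (orderOf (e * f)) := by
    rw [hD.orderOf_eq a ha]
    exact Nat.coprime_two_left.2 ho'
  have hord : orderOf (a * e * f) = 2 * orderOf (e * f) := by
    rw [mul_assoc, hcomm.orderOf_mul_eq_mul_orderOf_of_coprime hcop, hD.orderOf_eq a ha]
  rcases hD.pair (a * e) haeD f hf with h | h | ⟨h, -⟩
  · apply eq_of_commute_of_odd (sq hD hf) (sq hD he) _ ho
    have h1 : a * (e * f) = a * (f * e) := by
      calc a * (e * f) = a * e * f := by group
        _ = f * (a * e) := h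
        _ = (f * a) * e := by group
        _ = a * (f * e) := by rw [hfa]; group
    exact (mul_left_cancel h1).symm
  · rw [hord] at h
    exact absurd h (by simp)
  · rw [hord] at h
    have : orderOf (e * f) = 2 := by omega
    rw [this] at ho'
    exact absurd ho' (by decide)

/-- **Lemma A.** If `{a, e, a e} ⊆ D` and `f ∈ D`, `f ≠ e`, has `f e` of odd order, then one of
`f a`, `f (a e)` has odd order. -/
theorem odd_or_odd (hD : Cfsg.IsRootInvolutionSet D) {a e f : G} (ha : a ∈ D)
    (he : e ∈ D) (hf : f ∈ D) (hae : a * e = e * a) (haeD : a * e ∈ D)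
    (ho : Odd (orderOf (f * e))) (hne : f ≠ e) :
    Odd (orderOf (f * a)) ∨ Odd (orderOf (f * (a * e))) := by
  rcases hD.pair f hf a ha with h1 | h1 | ⟨h1, -⟩
  · exact absurd (eq_of_commute_partner hD ha he hf hae haeD h1 ho) hne
  · exact Or.inl h1
  · rcases hD.pair f hf (a * e) haeD with h2 | h2 | ⟨h2, -⟩
    · exfalso
      apply hne
      have h3 : a * e * e = a := by rw [mul_assoc, sq hD he, mul_one]
      refine eq_of_commute_partner hD haeD he hf ?_ (by rw [h3]; exact ha) h2 ho
      rw [h3, ← mul_assoc, ← hae, h3]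
    · exact Or.inr h2
    · exfalso
      apply hne
      apply eq_of_commute_of_odd (sq hD hf) (sq hD he) _ ho
      apply commute_of_four_four (sq hD ha) (sq hD he) (sq hD hf) hae _ _ ho
      · rw [← h1, pow_orderOf_eq_one]
      · rw [← h2, pow_orderOf_eq_one]

/-- Version of Lemma A for the adjacency relation. -/
theorem oddAdj_or_oddAdj (hD : Cfsg.IsRootInvolutionSet D) {a e f : G} (ha : a ∈ D)
    (hae : a * e = e * a) (haeD : a * e ∈ D) (h : Cfsg.OddAdj D f e) :
    Cfsg.OddAdj D f a ∨ Cfsg.OddAdj D f (a * e) := by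
  obtain ⟨hf, he, hne, ho⟩ := h
  rcases odd_or_odd hD ha he hf hae haeD ho hne with h1 | h1
  · left
    refine ⟨hf, ha, ?_, h1⟩
    rintro rfl
    exact hne (eq_of_commute_of_odd (sq hD hf) (sq hD he) hae ho)
  · right
    refine ⟨hf, haeD, ?_, h1⟩
    rintro rfl
    apply hne
    apply eq_of_commute_of_odd (sq hD haeD) (sq hD he) _ ho
    rw [mul_assoc, sq hD he, mul_one, ← mul_assoc, ← hae, mul_assoc, sq hD he, mul_one]

end Cfsg.Agent.Lib.Helper89.RootInv
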