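import Mathlib
import Cfsg.Agent.Lib.Helper89.PSU32
import Cfsg.Agent.Lib.Helper54.PConstrained

/-!
# The group `SL(2,3)`
-/

set_option autoImplicit false

namespace Cfsg.Agent.Lib.Helper89.SL23

local notation "G" => Matrix.SpecialLinearGroup (Fin 2) (ZMod 3)

set_option maxRecDepth 1000000 in
theorem c24 : Fintype.card G = 24 := by decide +kernel

theorem card_G : Nat.card G = 24 := by rw [Nat.card_eq_fintype_card, c24]

set_option maxRecDepth 1000000 in
theorem mulQ : ∀ x y : G, x ^ 4 = 1 → y ^ 4 = 1 → (x * y) ^ 4 = 1 := by decide +kernel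

set_option maxRecDepth 1000000 in
theorem commQ : ∀ x : G, x ^ 4 = 1 → ∃ a b : G, a * b * a⁻¹ * b⁻¹ = x := by decide +kernel

set_option maxRecDepth 1000000 in
theorem commQ' : ∀ a b : G, (a * b * a⁻¹ * b⁻¹) ^ 4 = 1 := by decide +kernel

set_option maxRecDepth 1000000 in
theorem c8 : Fintype.card {x : G // x ^ 4 = 1} = 8 := by decide +kernel

set_option maxRecDepth 1000000 in
theorem c2 : Fintype.card {x : G // x ^ 2 = 1} = 2 := by decide +kernel

set_option maxRecDepth 1000000 in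
theorem center_iff : ∀ x : G, (∀ g : G, g * x = x * g) ↔ x ^ 2 = 1 := by decide +kernel

set_option maxRecDepth 1000000 in
theorem conj4' : ∀ x y : G, (x ^ 4 = 1 ∧ x ^ 2 ≠ 1 ∧ y ^ 4 = 1 ∧ y ^ 2 ≠ 1) →
    ∃ g : G, g * x * g⁻¹ = y := by decide +kernel

theorem conj4 (x y : G) (h1 : x ^ 4 = 1) (h2 : x ^ 2 ≠ 1) (h3 : y ^ 4 = 1) (h4 : y ^ 2 ≠ 1) :
    ∃ g : G, g * x * g⁻¹ = y := conj4' x y ⟨h1, h2, h3, h4⟩

set_option maxRecDepth 1000000 in
theorem sq4 : ∀ x y : G, x ^ 4 = 1 → x ^ 2 ≠ 1 → y ^ 2 = 1 → y = 1 ∨ y = x ^ 2 := by decide +kernel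

set_option maxRecDepth 1000000 in
theorem comm3 : ∀ x : G, x ^ 4 ≠ 1 → ∃ g : G, (x * (g * x⁻¹ * g⁻¹)) ^ 4 = 1 ∧
    (x * (g * x⁻¹ * g⁻¹)) ^ 2 ≠ 1 := by decide +kernel

set_option maxRecDepth 1000000 in
theorem exists4 : ∃ x : G, x ^ 4 = 1 ∧ x ^ 2 ≠ 1 := by decide +kernel

/-- The quaternion subgroup. -/
def Q : Subgroup G where
  carrier := {x | x ^ 4 = 1}
  mul_mem' := fun {x y} hx hy => mulQ x y hx hy
  one_mem' := one_pow 4
  inv_mem' := fun {x} hx => by
    show x⁻¹ ^ 4 = 1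
    rw [inv_pow, hx, inv_one]

theorem mem_Q {x : G} : x ∈ Q ↔ x ^ 4 = 1 := Iff.rfl

instance : Q.Normal := ⟨fun x hx g => by
  rw [mem_Q] at hx ⊢
  rw [conj_pow, hx, mul_one, mul_inv_cancel]⟩

theorem card_Q : Nat.card Q = 8 := by
  have : Nat.card Q = Nat.card {x : G // x ^ 4 = 1} := rfl
  rw [this, Nat.card_eq_fintype_card, c8]

theorem commutator_eq : commutator G = Q := by
  apply le_antisymm
  · rw [commutator_eq_closure, Subgroup.closure_le]
    rintro x ⟨a, b, rfl⟩
    exact commQ' a b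
  · intro x hx
    obtain ⟨a, b, rfl⟩ := commQ x hx
    rw [commutator_eq_closure]
    exact Subgroup.subset_closure ⟨a, b, rfl⟩

theorem mem_center {x : G} : x ∈ Subgroup.center G ↔ x ^ 2 = 1 := by
  rw [Subgroup.mem_center_iff]
  exact center_iff x

theorem card_center : Nat.card (Subgroup.center G) = 2 := by
  have : Nat.card (Subgroup.center G) = Nat.card {x : G // x ^ 2 = 1} :=
    Nat.card_congr (Equiv.subtypeEquivRight fun x => mem_center)
  rw [this, Nat.card_eq_fintype_card, c2]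

theorem Q_le_of_mem {N : Subgroup G} (hN : N.Normal) {x : G} (hx : x ∈ N) (h4 : x ^ 4 = 1)
    (h2 : x ^ 2 ≠ 1) : Q ≤ N := by
  intro y hy
  by_cases hy2 : y ^ 2 = 1
  · rcases sq4 x y h4 h2 hy2 with rfl | rfl
    · exact N.one_mem
    · exact N.pow_mem hx 2
  · obtain ⟨g, rfl⟩ := conj4 x y h4 h2 hy hy2
    exact hN.conj_mem x hx g

theorem normal_cases (N : Subgroup G) (hN : N.Normal) :
    N = ⊥ ∨ N = ⊤ ∨ N = Subgroup.center G ∨ N = Q := by
  by_cases hB : ∃ x ∈ N, x ^ 4 ≠ 1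
  · obtain ⟨x, hx, hx4⟩ := hB
    obtain ⟨g, h4, h2⟩ := comm3 x hx4
    have hmem : x * (g * x⁻¹ * g⁻¹) ∈ N := N.mul_mem hx (hN.conj_mem _ (N.inv_mem hx) g)
    have hQ := Q_le_of_mem hN hmem h4 h2
    right; left
    have h8 : 8 ∣ Nat.card N := by
      rw [← card_Q]; exact Subgroup.card_dvd_of_le hQ
    have h24 : Nat.card N ∣ 24 := by
      rw [← card_G]; exact Subgroup.card_subgroup_dvd_card N
    have hne : Nat.card N ≠ 8 := by
      intro h
      have : Q = N := Subgroup.eq_of_le_of_card_ge hQ (by rw [h, card_Q])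
      rw [← this] at hx
      exact hx4 hx
    have : Nat.card N = 24 := by
      obtain ⟨k, hk⟩ := h8
      rw [hk] at h24 hne ⊢
      have hk3 : k ∣ 3 := by
        have : 8 * k ∣ 8 * 3 := h24
        exact Nat.dvd_of_mul_dvd_mul_left (by norm_num) this
      rcases (Nat.dvd_prime Nat.prime_three).1 hk3 with rfl | rfl
      · exact absurd rfl hne
      · rfl
    exact Subgroup.eq_top_of_card_eq N (by rw [this, card_G])
  · push Not at hB
    by_cases hA : ∃ x ∈ N, x ^ 2 ≠ 1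
    · obtain ⟨x, hx, hx2⟩ := hA
      right; right; right
      exact le_antisymm (fun y hy => hB y hy) (Q_le_of_mem hN hx (hB x hx) hx2)
    · push Not at hA
      obtain ⟨x0, h4, h2⟩ := exists4
      by_cases hbot : N = ⊥
      · exact Or.inl hbot
      · right; right; left
        apply le_antisymm
        · intro y hy
          exact mem_center.2 (hA y hy)
        · obtain ⟨⟨z, hz⟩, hz1'⟩ := (Subgroup.ne_bot_iff_exists_ne_one).1 hbot
          have hz1 : z ≠ 1 := fun h => hz1' (Subtype.ext h)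
          have hzz := (sq4 x0 z h4 h2 (hA z hz)).resolve_left hz1
          intro y hy
          rcases sq4 x0 y h4 h2 (mem_center.1 hy) with rfl | rfl
          · exact N.one_mem
          · rw [← hzz]; exact hz

theorem Q_quaternion : Nonempty (Q ≃* QuaternionGroup 2) := by
  obtain ⟨x0, h4, h2⟩ := exists4
  refine Cfsg.Agent.Lib.Helper89.PSU32.quaternion_of_card_eight card_Q
    ⟨x0 ^ 2, by rw [mem_Q, ← pow_mul]; show x0 ^ (4 * 2) = 1; rw [pow_mul, h4, one_pow]⟩ ?_ ?_
  · intro w hw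
    have hw' : (w : G) ^ 2 = 1 := by
      rw [pow_two]; exact congrArg Subtype.val hw
    rcases sq4 x0 w h4 h2 hw' with h | h
    · left; exact Subtype.ext h
    · right; exact Subtype.ext h
  · intro w
    exact Subtype.ext w.2

set_option maxRecDepth 1000000 in
theorem centQ : ∀ x : G, (∀ y : G, y ^ 4 = 1 → y * x = x * y) → x ^ 4 = 1 := by decide +kernel

set_option maxRecDepth 1000000 in
theorem exists3 : ∃ x : G, x ^ 3 = 1 ∧ x ≠ 1 := by decide +kernel

theorem pCore_two : Cfsg.pCore 2 G = Q := by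
  have hle : Q ≤ Cfsg.pCore 2 G :=
    Cfsg.Agent.Lib.Lead.le_pCore inferInstance (IsPGroup.of_card (n := 3) (by rw [card_Q]; norm_num))
  rcases normal_cases _ (Cfsg.Agent.Lib.Lead.pCore_normal' 2 G) with h | h | h | h
  · exfalso
    rw [h, le_bot_iff] at hle
    have := card_Q
    rw [hle, Subgroup.card_bot] at this
    omega
  · exfalso
    have : Fact (Nat.Prime 2) := ⟨Nat.prime_two⟩
    obtain ⟨k, hk⟩ := (IsPGroup.iff_card).1 (Cfsg.Agent.Lib.Lead.pCore_isPGroup 2 G)
    rw [h, Subgroup.card_top, card_G] at hk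
    have h3 : 3 ∣ 2 ^ k := by rw [← hk]; norm_num
    have := Nat.Prime.dvd_of_dvd_pow Nat.prime_three h3
    omega
  · exfalso
    have := Subgroup.card_dvd_of_le hle
    rw [h, card_Q, card_center] at this
    omega
  · exact h

theorem pPrimeCore_two : Cfsg.pPrimeCore 2 G = ⊥ := by
  have hc : (Nat.card (Cfsg.pPrimeCore 2 G)).Coprime 2 :=
    Cfsg.Agent.Lib.Lead.card_pPrimeCore_coprime 2
  have hn : (Cfsg.pPrimeCore 2 G).Normal := (Cfsg.Agent.Lib.Lead.pPrimeCore_mem 2).1
  rcases normal_cases _ hn with h | h | h | h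
  · exact h
  · exfalso; rw [h, Subgroup.card_top, card_G] at hc; revert hc; decide
  · exfalso; rw [h, card_center] at hc; revert hc; decide
  · exfalso; rw [h, card_Q] at hc; revert hc; decide

theorem isPConstrained : Cfsg.IsPConstrained 2 G := by
  have : Fact (Nat.Prime 2) := ⟨Nat.prime_two⟩
  apply Cfsg.Agent.Lib.Helper54.SelfCentPCore.isPConstrained
  unfold Cfsg.Agent.Lib.Helper54.SelfCentPCore
  rw [pCore_two]
  intro x hx
  exact centQ x (fun y hy => (Subgroup.mem_centralizer_iff.1 hx) y hy)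

end Cfsg.Agent.Lib.Helper89.SL23
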