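import Mathlib
import Cfsg.Agent.Lib.Helper89.TTNormal
import Cfsg.Agent.S5344
import Cfsg.Agent.S5351
import Cfsg.Agent.Lib.Helper29.FStar

set_option autoImplicit false

/-!
# Simple groups have elements of order greater than three; consequences for components
-/

namespace Cfsg.Agent.Lib.Helper89

open Cfsg.Agent.Lib.Helper8
open scoped commutatorElement

theorem perm4_cycle : ∃ σ : Equiv.Perm (Fin 4), σ ^ 2 ≠ 1 ∧ σ ^ 3 ≠ 1 :=
  ⟨Equiv.swap 0 1 * Equiv.swap 1 2 * Equiv.swap 2 3, by decide +kernel, by decide +kernel⟩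

/-- A finite non-abelian simple group has an element whose square and cube are non-trivial. -/
theorem exists_sq_ne_cube_ne {S : Type*} [Group S] [Finite S] [hS : IsSimpleGroup S]
    (hna : ∃ x y : S, x * y ≠ y * x) : ∃ g : S, g ^ 2 ≠ 1 ∧ g ^ 3 ≠ 1 := by
  by_contra hcon
  push Not at hcon
  have hall : ∀ g : S, g ^ 2 = 1 ∨ g ^ 3 = 1 := by
    intro g
    by_cases h : g ^ 2 = 1
    · exact Or.inl h
    · exact Or.inr (hcon g h)
  have hnsol : ¬ Group.IsSolvable S := by
    intro h
    obtain ⟨x, y, hxy⟩ := hna
    exact hxy (IsSimpleGroup.comm_iff_isSolvable.mpr h x y)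
  have : Fact (Nat.Prime 3) := ⟨Nat.prime_three⟩
  have hn3 : ¬ IsPGroup 3 S := by
    intro h
    have := h.isNilpotent
    exact hnsol inferInstance
  set I : Set S := {t | orderOf t = 2} with hI
  have hset : Cfsg.IsThreeTranspositionSet I := ⟨fun d hd => hd, fun d _ e _ => hall (d * e)⟩
  have hconj : ∀ g : S, ∀ p ∈ I, g * p * g⁻¹ ∈ I := by
    intro g p hp
    show orderOf (g * p * g⁻¹) = 2
    have : g * p * g⁻¹ = MulAut.conj g p := rfl
    rw [this, MulEquiv.orderOf_eq]
    exact hp
  -- there is an involution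
  obtain ⟨t, ht⟩ : ∃ t, t ∈ I := by
    by_contra hno
    push Not at hno
    apply hn3
    intro g
    refine ⟨1, ?_⟩
    rw [pow_one]
    rcases hall g with h | h
    · have h1 : orderOf g ∣ 2 := orderOf_dvd_of_pow_eq_one h
      rcases (Nat.dvd_prime Nat.prime_two).mp h1 with h2 | h2
      · rw [orderOf_eq_one_iff.mp h2, one_pow]
      · exact absurd h2 (hno g)
    · exact h
  have hnorm : (Subgroup.closure I).Normal := by
    constructor
    intro n hn g
    induction hn using Subgroup.closure_induction with
    | mem x hx => exact Subgroup.subset_closure (hconj g x hx)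
    | one => simp
    | mul x y _ _ ihx ihy =>
      have : g * (x * y) * g⁻¹ = (g * x * g⁻¹) * (g * y * g⁻¹) := by group
      rw [this]; exact Subgroup.mul_mem _ ihx ihy
    | inv x _ ih =>
      have : g * x⁻¹ * g⁻¹ = (g * x * g⁻¹)⁻¹ := by group
      rw [this]; exact Subgroup.inv_mem _ ih
  have hgen : Subgroup.closure I = ⊤ := by
    rcases hS.eq_bot_or_eq_top_of_normal _ hnorm with h | h
    · exfalso
      have : t ∈ Subgroup.closure I := Subgroup.subset_closure ht
      rw [h, Subgroup.mem_bot] at this
      exact tt_ne_one hset ht this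
    · exact h
  by_cases hw : ∀ a ∈ I, ∀ b ∈ I, Commute a b → a = b
  · -- width one
    have hbr : ∀ p ∈ I, ∀ q ∈ I, p * q * p = q * p * q := by
      intro p hp q hq
      rcases tt_commute_or_braid hset hp hq with hc | hc
      · rw [hw p hp q hq hc]
      · exact hc
    have h3 := fun a ha b hb => mul_mem_pCore_three (fun p hp => tt_mul_self hset hp) hconj hbr
      (a := a) (b := b) ha hb
    rcases hS.eq_bot_or_eq_top_of_normal _ (Cfsg.Agent.Lib.Lead.pCore_normal' 3 S) with h | h
    · apply hnsol
      apply Group.isSolvable_of_comm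
      have hall' : ∀ a ∈ I, a = t := by
        intro a ha
        have := h3 a ha t ht
        rw [h, Subgroup.mem_bot] at this
        rw [← tt_inv hset ht]
        exact eq_inv_of_mul_eq_one_left this
      have hle : Subgroup.closure I ≤ Subgroup.zpowers t := by
        rw [Subgroup.closure_le]
        intro a ha
        rw [hall' a ha]
        exact Subgroup.mem_zpowers t
      rw [hgen] at hle
      intro a b
      obtain ⟨m, rfl⟩ := Subgroup.mem_zpowers_iff.mp (hle (Subgroup.mem_top a))
      obtain ⟨n, rfl⟩ := Subgroup.mem_zpowers_iff.mp (hle (Subgroup.mem_top b))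
      rw [← zpow_add, ← zpow_add, add_comm]
    · apply hn3
      exact Cfsg.Agent.Lib.Lead.pCore_eq_top_iff.mp h
  · push Not at hw
    obtain ⟨a, ha, c, hc, hac, hne⟩ := hw
    have hstring : ∀ a' ∈ I, ∀ c' ∈ I, a' ≠ c' → Commute a' c' → ∀ b ∈ I,
        Commute a' b ∨ Commute b c' := by
      intro a' ha' c' hc' hne' hcomm b hb
      by_contra hno
      push Not at hno
      obtain ⟨φ, hinj, -⟩ := Cfsg.Agent.S5344.result hset ha' hb hc' hne' hcomm hno.1 hno.2
      obtain ⟨σ, h2, h3⟩ := perm4_cycle
      rcases hall (φ σ) with h | h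
      · rw [← map_pow, ← map_one φ] at h
        exact h2 (hinj h)
      · rw [← map_pow, ← map_one φ] at h
        exact h3 (hinj h)
    have ha2 := tt_mul_self hset ha
    have hc2 := tt_mul_self hset hc
    have hacI : a * c ∈ I := by
      show orderOf (a * c) = 2
      apply orderOf_eq_prime
      · rw [pow_two]
        calc a * c * (a * c) = a * (c * a) * c := by group
          _ = a * (a * c) * c := by rw [hac.eq]
          _ = (a * a) * (c * c) := by group
          _ = 1 := by rw [ha2, hc2, one_mul]
      · intro h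
        apply hne
        rw [← tt_inv hset hc]
        exact eq_inv_of_mul_eq_one_left h
    have hcen : ∀ b ∈ I, Commute a b := by
      intro b hb
      by_contra hab
      have h1 := (hstring a ha c hc hne hac b hb).resolve_left hab
      have h2 := (hstring a ha (a * c) hacI (by
        intro h
        apply tt_ne_one hset hc
        calc c = a * (a * c) := by rw [← mul_assoc, ha2, one_mul]
          _ = a * a := by rw [← h]
          _ = 1 := ha2) (Commute.mul_right (Commute.refl a) hac) b hb).resolve_left hab
      apply hab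
      have h3 : Commute b (a * c * c) := h2.mul_right h1
      rw [mul_assoc, hc2, mul_one] at h3
      exact h3.symm
    have hacen : a ∈ Subgroup.center S := by
      have hle : Subgroup.closure I ≤ Subgroup.centralizer {a} := by
        rw [Subgroup.closure_le]
        intro b hb
        rw [SetLike.mem_coe, Subgroup.mem_centralizer_singleton_iff]
        exact (hcen b hb).eq.symm
      rw [hgen] at hle
      rw [Subgroup.mem_center_iff]
      intro g
      have := hle (Subgroup.mem_top g)
      rw [Subgroup.mem_centralizer_singleton_iff] at this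
      exact this
    rcases hS.eq_bot_or_eq_top_of_normal (Subgroup.center S) inferInstance with h | h
    · rw [h, Subgroup.mem_bot] at hacen
      exact tt_ne_one hset ha hacen
    · obtain ⟨x, y, hxy⟩ := hna
      apply hxy
      have : x ∈ Subgroup.center S := by rw [h]; trivial
      exact (Subgroup.mem_center_iff.mp this y).symm

open Cfsg.Agent.Lib.Helper31

variable {G : Type*} [Group G] {D : Set G}

/-- A component has an element whose square and cube do not centralize it. -/
theorem IsComponent.exists_sq_cube [Finite G] {L : Subgroup G} (hL : Cfsg.IsComponent L) :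
    ∃ y ∈ L, y ^ 2 ∉ Subgroup.centralizer (L : Set G) ∧ y ^ 3 ∉ Subgroup.centralizer (L : Set G) := by
  have hq := hL.2
  have hs : IsSimpleGroup (L ⧸ Subgroup.center L) := hq.2
  have hna : ∃ x y : L ⧸ Subgroup.center L, x * y ≠ y * x := by
    by_contra hcon
    push Not at hcon
    apply IsComponent.not_isSolvable hL
    rw [Group.isSolvable_iff_subgroup_quotient (Subgroup.center L)]
    refine ⟨Group.isSolvable_of_comm ?_, Group.isSolvable_of_comm hcon⟩
    intro a b
    exact Subtype.ext (Subgroup.mem_center_iff.mp b.2 a)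
  obtain ⟨g, h2, h3⟩ := exists_sq_ne_cube_ne hna
  obtain ⟨y, rfl⟩ := QuotientGroup.mk_surjective g
  have key : ∀ k : ℕ, (y : G) ^ k ∈ Subgroup.centralizer (L : Set G) →
      ((y : L ⧸ Subgroup.center L)) ^ k = 1 := by
    intro k hk
    rw [← QuotientGroup.mk_pow, QuotientGroup.eq_one_iff, Subgroup.mem_center_iff]
    intro h
    apply Subtype.ext
    have := Subgroup.mem_centralizer_iff.mp hk h h.2
    simpa using this
  exact ⟨y, y.2, fun h => h2 (key 2 h), fun h => h3 (key 3 h)⟩

/-- Every member of `D` normalizes every component. -/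
theorem IsComponent.map_conj_eq [Finite G] (hD : Cfsg.IsThreeTranspositionClass D) {L : Subgroup G}
    (hL : Cfsg.IsComponent L) {a : G} (ha : a ∈ D) : L.map (MulAut.conj a).toMonoidHom = L := by
  by_contra hne
  have hLa := IsComponent.map_equiv hL (MulAut.conj a)
  have hcomm := IsComponent.commutator_eq_bot_of_ne hLa hL hne
  rw [Subgroup.commutator_eq_bot_iff_le_centralizer] at hcomm
  obtain ⟨y, hy, h2, h3⟩ := IsComponent.exists_sq_cube hL
  have ha2 := tt_mul_self hD.1 ha
  have hai := tt_inv hD.1 ha
  have hu : a * y * a⁻¹ ∈ L.map (MulAut.conj a).toMonoidHom := ⟨y, hy, rfl⟩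
  have huc := hcomm hu
  have hcy : Commute (a * y * a⁻¹) y⁻¹ := by
    have := Subgroup.mem_centralizer_iff.mp huc y hy
    exact (Commute.inv_right (show Commute (a * y * a⁻¹) y from this.symm))
  have e1 : cc a y = (a * y * a⁻¹) * y⁻¹ := by rw [cc, hai]; group
  have key : ∀ k : ℕ, cc a y ^ k = 1 → y ^ k ∈ Subgroup.centralizer (L : Set G) := by
    intro k hk
    rw [e1, hcy.mul_pow, inv_pow, mul_inv_eq_one] at hk
    rw [← hk]
    exact Subgroup.pow_mem _ huc k
  rcases cc_sq_or_cube hD ha y with h | h
  · exact h2 (key 2 h)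
  · exact h3 (key 3 h)

theorem IsComponent.normal_of_ttc [Finite G] (hD : Cfsg.IsThreeTranspositionClass D)
    {L : Subgroup G} (hL : Cfsg.IsComponent L) : L.Normal := by
  rw [← Subgroup.normalizer_eq_top_iff, eq_top_iff, ← hD.2.2, Subgroup.closure_le]
  intro a ha
  have h := IsComponent.map_conj_eq hD hL ha
  rw [SetLike.mem_coe, Subgroup.mem_normalizer_iff]
  intro x
  constructor
  · intro hx
    rw [← h]
    exact ⟨x, hx, rfl⟩
  · intro hx
    rw [← h] at hx
    obtain ⟨x', hx', he⟩ := hx
    have : x' = x := by simpa using he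
    rw [← this]; exact hx'

theorem IsComponent.not_le_center {L : Subgroup G} (hL : Cfsg.IsComponent L) :
    ¬ L ≤ Subgroup.center G := by
  intro hle
  apply IsComponent.not_le_centralizer hL
  intro x hx
  rw [Subgroup.mem_centralizer_iff]
  intro y _
  exact Subgroup.mem_center_iff.mp (hle hx) y

/-- If `O_2(G)` and `O_3(G)` are central there is only one component. -/
theorem IsComponent.unique_of_ttc [Finite G] (hD : Cfsg.IsThreeTranspositionClass D)
    (h2 : Cfsg.pCore 2 G ≤ Subgroup.center G) (h3 : Cfsg.pCore 3 G ≤ Subgroup.center G)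
    {L₁ L₂ : Subgroup G} (hL₁ : Cfsg.IsComponent L₁) (hL₂ : Cfsg.IsComponent L₂) : L₁ = L₂ := by
  by_contra hne
  obtain ⟨d, hd, -⟩ := hD.2.1
  have hn1 := IsComponent.normal_of_ttc hD hL₁
  have hn2 := IsComponent.normal_of_ttc hD hL₂
  have hcomm := IsComponent.commutator_eq_bot_of_ne hL₁ hL₂ hne
  rw [Subgroup.commutator_eq_bot_iff_le_centralizer] at hcomm
  have hXY : ∀ x ∈ L₁, ∀ y ∈ L₂, Commute x y := by
    intro x hx y hy
    exact (Subgroup.mem_centralizer_iff.mp (hcomm hx) y hy).symm
  have hc2 : ∀ n ∈ Cfsg.pCore 2 G, ∀ y ∈ L₂, Commute n y := fun n hn y _ =>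
    (Subgroup.mem_center_iff.mp (h2 hn) y).symm
  have hc3 : ∀ n ∈ Cfsg.pCore 3 G, ∀ y ∈ L₂, Commute n y := fun n hn y _ =>
    (Subgroup.mem_center_iff.mp (h3 hn) y).symm
  obtain ⟨x, hx, hx1⟩ := exists_cc_ne_one hD hd (IsComponent.not_le_center hL₁)
  apply IsComponent.not_le_center hL₂
  apply le_center_of_commute hD hd
  apply commute_of_forall_cc_pow hD hd (IsComponent.perfect hL₂) hc2 hc3
  rcases cc_sq_or_cube hD hd x with hx2 | hx3
  · left
    intro y hy
    rcases cc_sq_or_cube hD hd y with h' | h'
    · exact h'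
    · by_cases hy1 : cc d y = 1
      · rw [hy1, one_pow]
      · exact (cc_order_compat hD hd hXY hx hy hx1 hx2 hy1 h').elim
  · right
    intro y hy
    rcases cc_sq_or_cube hD hd y with h' | h'
    · by_cases hy1 : cc d y = 1
      · rw [hy1, one_pow]
      · exact (cc_order_compat hD hd (fun a ha b hb => (hXY b hb a ha).symm) hy hx hy1 h' hx1
          hx3).elim
    · exact h'

/-- For a normal component `L` and `a ∈ D` we have `[a, L] = L`. -/
theorem IsComponent.commutator_zpowers_eq (hD : Cfsg.IsThreeTranspositionClass D) {L : Subgroup G}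
    (hL : Cfsg.IsComponent L) [hn : L.Normal] {a : G} (ha : a ∈ D) :
    ⁅Subgroup.zpowers a, L⁆ = L := by
  rcases IsComponent.eq_or_le_centralizer hL (Subgroup.commutator_le_right _ L)
    (Subgroup.normalizer_commutator_ge_right _ _) with h | h
  · exact h
  · exfalso
    have h1 := commutator_eq_bot_of_perfect (IsComponent.perfect hL)
      (Subgroup.commutator_eq_bot_iff_le_centralizer.mpr h)
    rw [Subgroup.commutator_eq_bot_iff_le_centralizer] at h1
    apply IsComponent.not_le_center hL
    apply le_center_of_commute hD ha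
    intro y hy
    exact (Subgroup.mem_centralizer_iff.mp (h1 (Subgroup.mem_zpowers a)) y hy).symm

/-- Modulo a normal component, members of `D` which commute are equal. -/
theorem IsComponent.mul_mem_of_commutator_mem (hD : Cfsg.IsThreeTranspositionClass D)
    {L : Subgroup G} (hL : Cfsg.IsComponent L) [hn : L.Normal] {a b : G} (ha : a ∈ D) (hb : b ∈ D)
    (hab : a * b * a⁻¹ * b⁻¹ ∈ L) : a⁻¹ * b ∈ L := by
  have ha2 := tt_mul_self hD.1 ha
  have hb2 := tt_mul_self hD.1 hb
  have hai := tt_inv hD.1 ha
  have hbi := tt_inv hD.1 hb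
  rw [hai] at hab ⊢
  rw [hbi] at hab
  rcases hD.1.2 a ha b hb with h | h
  · -- `a` and `b` commute
    have hc : Commute a b := commute_of_sq ha2 hb2 h
    by_contra hnot
    apply IsComponent.not_le_center hL
    apply le_center_of_commute hD hb
    have hbc : ∀ y ∈ L, Commute b (y * a * y⁻¹) := by
      intro y hy
      have hcD := ttc_conj_mem hD y ha
      rcases hD.1.2 b hb _ hcD with h' | h'
      · exact commute_of_sq hb2 (tt_mul_self hD.1 hcD) h'
      · exfalso
        apply hnot
        have e1 : ((b * (y * a * y⁻¹) : G) : G ⧸ L) = ((b * a : G) : G ⧸ L) := by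
          rw [QuotientGroup.eq]
          have : (b * (y * a * y⁻¹))⁻¹ * (b * a) = y * (a⁻¹ * y⁻¹ * a⁻¹⁻¹) := by group
          rw [this]
          exact L.mul_mem hy (hn.conj_mem _ (L.inv_mem hy) _)
        have e3 : ((b * a : G) : G ⧸ L) ^ 3 = 1 := by
          rw [← e1, ← QuotientGroup.mk_pow, h']; rfl
        have e2 : ((b * a : G) : G ⧸ L) ^ 2 = 1 := by
          rw [← QuotientGroup.mk_pow, ← hc.eq, h]; rfl
        have e4 : ((b * a : G) : G ⧸ L) = 1 := by
          calc ((b * a : G) : G ⧸ L) = ((b * a : G) : G ⧸ L) ^ 3 * (((b * a : G) : G ⧸ L) ^ 2)⁻¹ := by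
                group
            _ = 1 := by rw [e3, e2]; simp
        rw [QuotientGroup.eq_one_iff, ← hc.eq] at e4
        exact e4
    have hle : ⁅Subgroup.zpowers a, L⁆ ≤ Subgroup.centralizer {b} := by
      rw [Subgroup.commutator_le]
      intro a' ha' y hy
      rcases zpowers_cases ha2 ha' with rfl | rfl
      · simp
      · rw [Subgroup.mem_centralizer_singleton_iff]
        have : ⁅a', y⁆ = a' * (y * a' * y⁻¹) := by
          rw [commutatorElement_def, hai]; group
        rw [this]
        exact (hc.symm.mul_right (hbc y hy)).eq.symm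
    rw [IsComponent.commutator_zpowers_eq hD hL ha] at hle
    intro y hy
    have := hle hy
    rw [Subgroup.mem_centralizer_singleton_iff] at this
    exact this.symm
  · have e1 : a * b = ((a * b) ^ 2)⁻¹ := by
      rw [eq_inv_iff_mul_eq_one, ← pow_succ', h]
    rw [e1]
    apply L.inv_mem
    have : (a * b) ^ 2 = a * b * a * b := by rw [pow_two]; group
    rw [this]; exact hab

end Cfsg.Agent.Lib.Helper89
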