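import Mathlib
import Cfsg.Prelude.Def_SporadicB
import Cfsg.Prelude.Def_FischerSpaces
import Cfsg.Agent.Lib.Helper8.Fischer
import Cfsg.Agent.Lib.Helper8.Fischer3
import Cfsg.Agent.Lib.Helper8.Fischer5
import Cfsg.Agent.Lib.Helper89.TTLayer
import Cfsg.Agent.S5351

/-!
# Primitivity of the action on a class of 3-transpositions and helper8's kernel property
-/

set_option autoImplicit false

namespace Cfsg.Agent.Lib.Helper89

open Cfsg.Agent.Lib.Helper8 Cfsg.Agent.Lib.Helper31
open scoped commutatorElement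

variable {G : Type*} [Group G] {D : Set G}

local notation:75 g:76 " ⋆ " x:75 => g * x * g⁻¹

/-- If every normal subgroup contains the commutator subgroup or is central, then the kernel
property holds. -/
theorem kerProp_of_dichotomy (hD : Cfsg.IsThreeTranspositionClass D)
    (hdich : ∀ N : Subgroup G, N.Normal → commutator G ≤ N ∨ N ≤ Subgroup.center G) :
    KerProp D := by
  intro r hr t ht hfix
  have hle : commutator G ≤ relKer hD hr := by
    rcases hdich _ (relKer_normal hD hr) with h | h
    · exact h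
    · exact absurd (h ((mem_relKer hD hr).2 hfix)) ht
  have key : ∀ a ∈ D, ∀ g : G, r (g ⋆ a) a := by
    intro a ha g
    have hg : g ∈ Subgroup.closure D := by rw [hD.2.2]; trivial
    induction hg using Subgroup.closure_induction with
    | mem d hd =>
      obtain ⟨h, rfl⟩ := ttc_isConj hD ha hd
      have h1 : ⁅h, a⁆ ∈ relKer hD hr :=
        hle (Subgroup.commutator_mem_commutator (Subgroup.mem_top h) (Subgroup.mem_top a))
      have h2 := h1 a ha
      have h3 : ⁅h, a⁆ ⋆ a = (h ⋆ a) ⋆ a := by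
        rw [commutatorElement_def]; group
      rwa [h3] at h2
    | one =>
      have : (1 : G) ⋆ a = a := by group
      rw [this]; exact hr.refl a
    | mul g₁ g₂ _ _ h₁ h₂ =>
      rw [cj_mul]
      exact hr.trans (hr.conj g₁ h₂) h₁
    | inv g₁ _ h₁ =>
      have := hr.conj g₁⁻¹ h₁
      rw [cj_inv_cj] at this
      exact hr.symm this
  intro x hx y hy
  obtain ⟨g, rfl⟩ := ttc_isConj hD hx hy
  exact hr.symm (key x hx g)

/-- The invariant equivalence relation attached to a subset `B`. -/
def blockRel (B : Set G) (x y : G) : Prop := ∀ g : G, g ⋆ x ∈ B ↔ g ⋆ y ∈ B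

theorem blockRel_invRel (B : Set G) : InvRel (blockRel B) where
  refl := fun _ _ => Iff.rfl
  symm := fun h g => (h g).symm
  trans := fun h h' g => (h g).trans (h' g)
  conj := by
    intro k x y h g
    rw [← cj_mul, ← cj_mul]
    exact h (g * k)

theorem blockRel_of_block {B : Set G}
    (hB : ∀ g : G, (fun x => g * x * g⁻¹) '' B = B ∨ Disjoint ((fun x => g * x * g⁻¹) '' B) B)
    {x y : G} (hx : x ∈ B) (hy : y ∈ B) : blockRel B x y := by
  have key : ∀ x ∈ B, ∀ y ∈ B, ∀ g : G, g ⋆ x ∈ B → g ⋆ y ∈ B := by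
    intro x hx y hy g hg
    rcases hB g with h | h
    · rw [← h]; exact ⟨y, hy, rfl⟩
    · exact absurd hg (Set.disjoint_left.1 h ⟨x, hx, rfl⟩)
  exact fun g => ⟨key x hx y hy g, key y hy x hx g⟩

/-- Under the kernel property and `O₃(G) ≤ Z(G)`, an invariant equivalence relation relating two
different members of `D` is universal on `D`. -/
theorem invRel_universal [Finite G] (hD : Cfsg.IsThreeTranspositionClass D) (hK : KerProp D)
    (h3 : Cfsg.pCore 3 G ≤ Subgroup.center G) {r : G → G → Prop} (hr : InvRel r) {d b : G}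
    (hd : d ∈ D) (hb : b ∈ D) (hne : d ≠ b) (hdb : r d b) : ∀ x ∈ D, ∀ y ∈ D, r x y := by
  have hT := hD.1
  by_cases hex : ∃ x ∈ D, ∃ y ∈ D, x ≠ y ∧ Commute x y ∧ r x y
  · obtain ⟨x, hx, y, hy, hxy, hc, hrxy⟩ := hex
    exact blk hD hK hr hx hy hxy hc hrxy
  · exfalso
    push Not at hex
    have hnc : ¬ Commute d b := fun hc => hex d hd b hb hne hc hdb
    have hsub : Dp D d ⊆ Dp D b := by
      intro y hy
      have hyb : Commute y b := by
        by_contra hyb
        have h1 := hr.conj y hdb
        rw [cj_eq_self_iff.2 hy.2.2.symm, tt_star_comm hT hy.1 hb hyb] at h1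
        have h2 := hr.conj b h1
        rw [tt_star_star hT hb] at h2
        have h4 := hr.conj b hdb
        rw [cj_eq_self_iff.2 (Commute.refl b)] at h4
        -- `r (b ⋆ d) y`, `r (b ⋆ d) b`
        have h5 : r y d := hr.trans (hr.symm h2) (hr.trans h4 (hr.symm hdb))
        exact hex y hy.1 d hd hy.2.1 hy.2.2.symm h5
      refine ⟨hy.1, ?_, hyb.symm⟩
      rintro rfl
      exact hnc hy.2.2
    have heq := (Dp_eqv hD).eq_of_subset hD hd hb hsub
    exact mul_not_mem_center' hT hd hb hnc (h3 (mul_mem_pCore_three_of_Dp_eq hD hd hb heq))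

/-- Under the kernel property and `O₃(G) ≤ Z(G)` the action on `D` is primitive. -/
theorem isPrimitive_of_kerProp [Finite G] (hD : Cfsg.IsThreeTranspositionClass D)
    (hD2 : ∃ a ∈ D, ∃ b ∈ D, a ≠ b) (hK : KerProp D)
    (h3 : Cfsg.pCore 3 G ≤ Subgroup.center G) : Cfsg.IsPrimitiveUnderConj D := by
  refine ⟨fun a ha b hb => ttc_isConj hD ha hb, hD2, ?_⟩
  intro B hBD hB
  by_contra hcon
  push Not at hcon
  obtain ⟨hns, hne⟩ := hcon
  obtain ⟨x, hx, y, hy, hxy⟩ := hns
  have huniv := invRel_universal hD hK h3 (blockRel_invRel B) (hBD hx) (hBD hy) hxy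
    (blockRel_of_block hB hx hy)
  apply hne
  apply Set.Subset.antisymm hBD
  intro z hz
  have := (huniv x (hBD hx) z hz 1).1 (by simpa using hx)
  simpa using this

/-- Primitivity implies the kernel property. -/
theorem kerProp_of_isPrimitive (hD : Cfsg.IsThreeTranspositionClass D)
    (hprim : Cfsg.IsPrimitiveUnderConj D) : KerProp D := by
  intro r hr t ht hfix
  obtain ⟨d, hd, -⟩ := hD.2.1
  have hblock := hprim.2.2 {y | y ∈ D ∧ r d y} (fun y hy => hy.1) (by
    intro g
    by_cases hg : r (g ⋆ d) d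
    · left
      ext z
      constructor
      · rintro ⟨y, ⟨hy, hdy⟩, rfl⟩
        exact ⟨ttc_conj_mem hD g hy, hr.trans (hr.symm hg) (hr.conj g hdy)⟩
      · rintro ⟨hz, hdz⟩
        refine ⟨g⁻¹ ⋆ z, ⟨ttc_conj_mem hD g⁻¹ hz, ?_⟩, cj_cj_inv g z⟩
        have h1 := hr.conj g⁻¹ (hr.trans hg hdz)
        rwa [cj_inv_cj] at h1
    · right
      rw [Set.disjoint_left]
      rintro _ ⟨y, ⟨_, hdy⟩, rfl⟩ ⟨_, h2⟩
      exact hg (hr.trans (hr.conj g hdy) (hr.symm h2)))
  rcases hblock with h | h
  · exfalso
    apply ht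
    -- all classes are singletons, so `t` centralizes `D`
    have hsing : ∀ x ∈ D, ∀ y ∈ D, r x y → x = y := by
      intro x hx y hy hxy
      obtain ⟨g, rfl⟩ := ttc_isConj hD hd hx
      have h1 := hr.conj g⁻¹ hxy
      rw [cj_inv_cj] at h1
      have h2 := h ⟨hd, hr.refl d⟩ ⟨ttc_conj_mem hD g⁻¹ hy, h1⟩
      rw [h2, cj_cj_inv]
    apply mem_center_of_commute hD
    intro x hx
    exact (cj_eq_self_iff.1 (hsing _ (ttc_conj_mem hD t hx) x hx (hfix x hx))).symm
  · intro x hx y hy
    have hx' : x ∈ {y | y ∈ D ∧ r d y} := by rw [h]; exact hx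
    have hy' : y ∈ {y | y ∈ D ∧ r d y} := by rw [h]; exact hy
    exact hr.trans (hr.symm hx'.2) hy'.2

/-- If `F*(G) = L Z(G)` and `O₂(G), O₃(G)` are central then `C_G(L) = Z(G)`. -/
theorem centralizer_le_center_of_genFitting [Finite G] (hD : Cfsg.IsThreeTranspositionClass D)
    (h2 : Cfsg.pCore 2 G ≤ Subgroup.center G) (h3 : Cfsg.pCore 3 G ≤ Subgroup.center G)
    (L : Subgroup G) [L.Normal]
    (hF : Cfsg.generalizedFittingSubgroup G = L ⊔ Subgroup.center G) :
    Subgroup.centralizer (L : Set G) ≤ Subgroup.center G := by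
  intro x hx
  have h1 : x ∈ Subgroup.centralizer ((L ⊔ Subgroup.center G : Subgroup G) : Set G) := by
    have : L ⊔ Subgroup.center G ≤ Subgroup.centralizer {x} := by
      refine sup_le ?_ ?_
      · intro l hl
        rw [Subgroup.mem_centralizer_singleton_iff]
        exact ((Subgroup.mem_centralizer_iff.1 hx) l hl)
      · intro z hz
        rw [Subgroup.mem_centralizer_singleton_iff]
        exact ((Subgroup.mem_center_iff.1 hz) x).symm
    rw [Subgroup.mem_centralizer_iff]
    intro y hy
    exact ((Subgroup.mem_centralizer_singleton_iff.1 (this hy)))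
  rw [← hF] at h1
  have h4 := centralizer_genFitting_le h1
  rw [hF, Subgroup.mem_sup_of_normal_left] at h4
  obtain ⟨l, hl, z, hz, rfl⟩ := h4
  refine mul_mem ?_ hz
  have hlc : l ∈ Subgroup.centralizer (L : Set G) := by
    have : l = l * z * z⁻¹ := by group
    rw [this]
    refine mul_mem hx (inv_mem ?_)
    rw [Subgroup.mem_centralizer_iff]
    intro y _
    exact (Subgroup.mem_center_iff.1 hz) y
  have hA : (L ⊓ Subgroup.centralizer (L : Set G)).Normal := inferInstance
  have hAc : IsMulCommutative (L ⊓ Subgroup.centralizer (L : Set G) : Subgroup G) := by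
    refine ⟨⟨?_⟩⟩
    rintro ⟨a, ha⟩ ⟨b, hb⟩
    apply Subtype.ext
    exact (Subgroup.mem_centralizer_iff.1 hb.2) a ha.1
  exact Cfsg.Agent.S5351.fitting_le_center hD h2 h3
    (Cfsg.Agent.Lib.Helper29.le_fittingSubgroup hA
      (Cfsg.Agent.Lib.Helper29.isNilpotent_of_isMulCommutative _) ⟨hl, hlc⟩)

/-- A normal subgroup contains the quasisimple normal subgroup `L` or is central. -/
theorem normal_dichotomy_of_genFitting [Finite G] (hD : Cfsg.IsThreeTranspositionClass D)
    (h2 : Cfsg.pCore 2 G ≤ Subgroup.center G) (h3 : Cfsg.pCore 3 G ≤ Subgroup.center G)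
    (L : Subgroup G) [hLn : L.Normal] (hL : Cfsg.IsQuasisimple L)
    (hF : Cfsg.generalizedFittingSubgroup G = L ⊔ Subgroup.center G)
    (N : Subgroup G) [N.Normal] : L ≤ N ∨ N ≤ Subgroup.center G := by
  have hLc : Cfsg.IsComponent L := ⟨hLn.isSubnormal, hL⟩
  have hKn : (⁅N, L⁆ : Subgroup G).Normal := inferInstance
  rcases IsComponent.eq_or_le_centralizer hLc (Subgroup.commutator_le_right N L)
    (by rw [Subgroup.normalizer_eq_top_iff.2 hKn]; exact le_top) with h | h
  · left
    rw [← h]
    exact Subgroup.commutator_le_left N L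
  · right
    rw [← Subgroup.commutator_eq_bot_iff_le_centralizer] at h
    have h4 : ⁅⁅L, L⁆, N⁆ = ⊥ :=
      Subgroup.commutator_commutator_eq_bot_of_rotate (by rw [Subgroup.commutator_comm L N]; exact h) h
    rw [IsComponent.perfect hLc, Subgroup.commutator_comm,
      Subgroup.commutator_eq_bot_iff_le_centralizer] at h4
    exact h4.trans (centralizer_le_center_of_genFitting hD h2 h3 L hF)

/-- A subgroup of index at most two contains the commutator subgroup. -/
theorem commutator_le_of_index_le_two [Finite G] (L : Subgroup G) [L.Normal] (h : L.index ≤ 2) :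
    commutator G ≤ L := by
  have hc : Nat.card (G ⧸ L) ≤ 2 := h
  have hcomm : ∀ a b : G ⧸ L, a * b = b * a := by
    have hpos : 0 < Nat.card (G ⧸ L) := Nat.card_pos
    have : Nat.card (G ⧸ L) = 1 ∨ Nat.card (G ⧸ L) = 2 := by omega
    rcases this with h1 | h1
    · have := (Nat.card_eq_one_iff_unique.1 h1).1
      intro a b; exact Subsingleton.elim _ _
    · have : Fact (Nat.Prime 2) := ⟨Nat.prime_two⟩
      have hcy := isCyclic_of_prime_card h1
      intro a b
      exact (IsCyclic.isMulCommutative (α := G ⧸ L)).is_comm.comm a b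
  rw [commutator_def, Subgroup.commutator_le]
  intro x _ y _
  rw [← QuotientGroup.eq_one_iff, commutatorElement_def]
  simp only [QuotientGroup.mk_mul, QuotientGroup.mk_inv]
  rw [hcomm (x : G ⧸ L) y]
  group

end Cfsg.Agent.Lib.Helper89
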